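import Cfsg.Agent.IQ.LX

set_option autoImplicit false

namespace Cfsg.Agent.IQ

open Subgroup Cfsg.Agent.H44 Cfsg.Agent.H59
open Cfsg.Agent.H42 (SylIn)

universe u

variable {G : Type u} [Group G] [Finite G]

namespace B1X

omit [Finite G] in
theorem q8 {z x n : G} (zz : z * z = 1) (xx : x * x = z) (nn : n * n = z) (inv : n * x * n⁻¹ = x⁻¹) :
    x * n * x⁻¹ = n⁻¹ ∧ x * n * (x * n) = z ∧ n * (x * n) * n⁻¹ = (x * n)⁻¹ ∧ n⁻¹ * x = x * n ∧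
      n * x = z * (x * n) := by
  have e : x * n * x = n := by rw [mul_assoc, mul_inv_eq_iff_eq_mul.1 inv]; group
  have e1 : x * n * x⁻¹ = n⁻¹ := by
    calc _ = x * n * x * (x * x)⁻¹ := by group
      _ = _ := by rw [e, xx, ← nn]; group
  have e2 : x * n * (x * n) = z := by rw [← mul_assoc, e, nn]
  have e3 : n * x = z * (x * n) := by rw [mul_inv_eq_iff_eq_mul.1 inv, inv_eq_mul xx zz, mul_assoc]
  refine ⟨e1, e2, ?_, by rw [← e1, inv_mul_cancel_right], e3⟩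
  rw [inv_eq_mul e2 zz, ← e3]; group

omit [Finite G] in
theorem prod4 {z w y v2 v3 v4 : G} (ww : w * w = 1) (yy : y * y = w) (c2 : Commute y v2) (c3 : Commute y v3)
    (c4 : Commute y v4) (e : v2 * v3 = v4 * z) (vz : v4 * z = z * v4) (vv : v4 * v4 = 1) :
    y * (v2 * y) * (v3 * y) * (v4 * y) = z := by
  calc _ = y * (v2 * (y * (v3 * (y * (v4 * y))))) := by group
    _ = v2 * v3 * v4 * (y * y * (y * y)) := by
      rw [c4.left_comm, c3.left_comm, c4.left_comm, c2.left_comm, c3.left_comm, c4.left_comm]; group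
    _ = _ := by rw [yy, ww, e, vz, mul_one, mul_assoc, vv, mul_one]

omit [Finite G] in
theorem flip {w y y' : G} (ww : w * w = 1) (yy : y * y = w) (yy' : y' * y' = w) (p : G) (c : Commute w p) :
    y⁻¹ * p * y'⁻¹ = y * p * y' := by
  have : Commute w y := yy ▸ ((Commute.refl y).mul_left (Commute.refl y))
  rw [inv_eq_mul yy ww, inv_eq_mul yy' ww, mul_assoc w, (this.mul_right c).eq, mul_assoc, ← mul_assoc w, ww, one_mul]

end B1X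

theorem Cn.not_b1 {J K T S : Subgroup G} {z w y x n : G} (h : Cn J K z w y x n T S)
    (wn : w * n * w⁻¹ = n) : False := by
  have zz := h.fr.zz
  have ww := h.fr.ww
  have nS := h.fr.mem_S h.nT (mul_inv_eq_iff_eq_mul.1 wn).symm
  obtain ⟨r1, r2, r3, r4, r5⟩ := B1X.q8 zz h.xx h.nn h.inv
  have h3 : Cn J K z w y n x T S :=
    { h.toCf2 with xJ := h.nJ, xT := h.nT, xS := nS, xx := h.nn, nJ := h.xJ, nT := h.xT, nn := h.xx, inv := r1 }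
  have h4 : Cn J K z w y (x * n) n T S :=
    { h with xJ := mul_mem h.xJ h.nJ, xT := mul_mem h.xT h.nT, xS := mul_mem h.xS nS, xx := r2, inv := r3 }
  obtain ⟨N2, yy, c2⟩ := h.toCx.lx.resolve_left fun k => h.not_a k.1
  obtain ⟨N3, -, c3⟩ := h3.toCx.lx.resolve_left fun k => h3.not_a k.1
  obtain ⟨N4, -, c4⟩ := h4.toCx.lx.resolve_left fun k => h4.not_a k.1
  have yz := h.fr.cz h.yT
  have cT : ∀ {c}, c ∈ T → y * c * y⁻¹ ∈ T := fun k => mul_mem (mul_mem h.yT k) (inv_mem h.yT)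
  have cS : ∀ {c d}, c ∈ S → d ∈ S → c * d * c⁻¹ ∈ S := fun k l => mul_mem (mul_mem k l) (inv_mem k)
  have pz : y * (x * y * x⁻¹) * (n * y * n⁻¹) * (x * n * y * (x * n)⁻¹) = z := by
    rw [h.toCx.conj_y, h3.toCx.conj_y, h4.toCx.conj_y]
    refine B1X.prod4 ww yy c2 c3 c4 ?_ (h.fr.cz (mul_mem h4.xT (inv_mem (cT h4.xT)))) h4.toCx.vv
    have c : Commute n (y * x * y⁻¹) := h.toCf.comm h.nJ h.nT h.xJ h.xT
    calc _ = x * ((y * x * y⁻¹)⁻¹ * n) * (y * n * y⁻¹)⁻¹ := by group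
      _ = x * n * (y * (n * x) * y⁻¹)⁻¹ := by rw [← c.inv_right.eq]; group
      _ = x * n * (y * (x * n) * y⁻¹)⁻¹ * z⁻¹ := by rw [r5, ← mul_assoc y, yz]; group
      _ = _ := by rw [inv_eq_of_mul_eq_one_left zz]
  have g : ∀ {c}, c ∈ S → Good (cj c K) w := fun k => h.gK.cj' (h.fr.cw k)
  have cm : ∀ {c d p q}, c ∈ S → d ∈ S → d⁻¹ * c ∉ Nz K → p ∈ S → p ∈ K → q ∈ S → q ∈ K →
      Commute (c * p * c⁻¹) (d * q * d⁻¹) := fun k l m pS pK qS qK =>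
    (g k).comp.comm (g l).comp (mt cj_eq_cj_iff.1 m) h.fr.pS (cS k pS) (cS l qS) (conj_mem_cj pK) (conj_mem_cj qK)
  obtain ⟨a, ⟨aS, aK⟩, -, ay⟩ := h.gK.q1 (h.gK.comp.syl h.fr.sS) ⟨h.yS, h.yK⟩ yy
  have cm1 : ∀ {c p q}, c ∈ S → c ∉ Nz K → p ∈ S → p ∈ K → q ∈ S → q ∈ K → Commute (c * p * c⁻¹) q :=
    fun k m pS pK qS qK => by simpa using cm k (one_mem S) (by simpa using m) pS pK qS qK
  have d1 := (cm1 nS N3 aS aK h.yS h.yK).eq
  have d2 := ((cm1 h.xS N2 h.yS h.yK aS aK).mul_right (cm h.xS nS (r4 ▸ N4) h.yS h.yK aS aK)).symm.eq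
  have d3 := (cm1 nS N3 h.yS h.yK aS aK).inv_left.symm.eq
  have d4 := ((cm1 h4.xS N4 h.yS h.yK aS aK).mul_right (cm h4.xS nS (by
    rwa [← mul_assoc, r4, ← r4, show n⁻¹ * x * n = x⁻¹ by rw [r4, mul_assoc, h.nn, inv_eq_mul h.xx zz, h.fr.cz h.xT],
      inv_mem_iff]) h.yS h.yK aS aK)).symm.eq
  have t1 : a * (n * a * n⁻¹) * y * (a * (n * a * n⁻¹))⁻¹ = y⁻¹ := by
    calc _ = a * (n * a * n⁻¹ * y * (n * a * n⁻¹)⁻¹) * a⁻¹ := by group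
      _ = _ := by rw [d1, mul_inv_cancel_right, ay]
  have t3 : a * (n * a * n⁻¹) * (n * y * n⁻¹) * (a * (n * a * n⁻¹))⁻¹ = (n * y * n⁻¹)⁻¹ := by
    calc _ = a * (n * (a * y * a⁻¹) * n⁻¹) * a⁻¹ := by group
      _ = _ := by rw [ay, ← conj_inv, d3, mul_inv_cancel_right]
  have tS := mul_mem aS (cS nS aS)
  generalize a * (n * a * n⁻¹) = t at d2 d4 t1 t3 tS
  have y3 : n * y * n⁻¹ * (n * y * n⁻¹) = w := by rw [conj_mul, yy, h.fr.cw nS, mul_inv_cancel_right]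
  have tz : t * z = z * t := by
    refine mul_inv_eq_iff_eq_mul.1 ?_
    conv_lhs => rw [← pz, ← conj_mul, ← conj_mul, ← conj_mul, t1, t3, d2, d4, mul_inv_cancel_right,
      mul_inv_cancel_right, B1X.flip ww yy y3 _ (h.fr.cw (cS h.xS h.yS)).symm, pz]
  have tT := h.fr.mem_T tS tz
  have v : ∀ c : G, c * (y * c * y⁻¹)⁻¹ = c * y * c⁻¹ * y⁻¹ := fun c => by group
  have tv : t * (n * (y * n * y⁻¹)⁻¹) = n * (y * n * y⁻¹)⁻¹ * t := by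
    refine mul_inv_eq_iff_eq_mul.1 ?_
    have := B1X.flip ww y3 (show y⁻¹ * y⁻¹ = w by rw [← mul_inv_rev, yy, inv_eq_of_mul_eq_one_left ww]) 1
      (Commute.one_right _)
    rw [v, ← conj_mul, ← conj_inv, t1, t3]
    simpa only [mul_one] using this
  have e : w = y * x * y⁻¹ * x⁻¹ * (t * x * t⁻¹) * (t * (y * x * y⁻¹) * t⁻¹)⁻¹ := by
    calc w = y * x * y⁻¹ * x⁻¹ * ((x * y * x⁻¹) * y⁻¹⁻¹) := by rw [← yy]; group
      _ = y * x * y⁻¹ * x⁻¹ * (t * (x * y * x⁻¹) * t⁻¹ * (t * y * t⁻¹)⁻¹) := by rw [t1, d2, mul_inv_cancel_right]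
      _ = _ := by group
  have g' := h.toCf.gJ'
  have cJ : ∀ {p q}, p ∈ T → p ∈ J → q ∈ T → q ∈ cj y J → Commute p q := fun pT pJ qT qJ =>
    h.gJ.comp.comm g'.comp (cj_ne h.yN).symm h.fr.pT pT qT pJ qJ
  have fin : ∀ {q q'}, q ∈ T → q ∈ J → q' ∈ T → q' ∈ cj y J → w ≠ q * q' := fun {q q'} qT qJ qT' qJ' k => by
    have k' : q = w * q'⁻¹ := by rw [k, mul_inv_cancel_right]
    have cq : ∀ {c}, c ∈ T → c ∈ J → c ∈ S → q * c = c * q := fun cT cJ' cS' =>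
      k' ▸ ((show Commute _ w from h.fr.cw cS').mul_right (cJ cT cJ' qT' qJ').inv_right).symm.eq
    have : w ∈ cj y J := k ▸ mul_mem ((h.gJ.cent2 (h.gJ.comp.syl h.fr.sT) ⟨h.xT, h.xJ⟩ h.xx ⟨h.nT, h.nJ⟩ h.inv
      ⟨qT, qJ⟩ (cq h.xT h.xJ h.xS) (cq h.nT h.nJ nS)).elim (fun l => l ▸ one_mem _) fun l => l ▸ g'.mem) qJ'
    exact (g'.uniq w this ww).elim h.gK.z1 h.ne.symm
  have pT : t * x * t⁻¹ ∈ T := mul_mem (mul_mem tT h.xT) (inv_mem tT)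
  have pT' : t * (y * x * y⁻¹) * t⁻¹ ∈ T := mul_mem (mul_mem tT (cT h.xT)) (inv_mem tT)
  have pJ : t * x * t⁻¹ ∈ cj t J := conj_mem_cj h.xJ
  have xJ' : y * x * y⁻¹ ∈ cj y J := conj_mem_cj h.xJ
  have pJ' : t * (y * x * y⁻¹) * t⁻¹ ∈ cj t (cj y J) := conj_mem_cj xJ'
  have xT' := cT h.xT
  generalize t * x * t⁻¹ = p at e pT pJ
  generalize t * (y * x * y⁻¹) * t⁻¹ = p' at e pT' pJ'
  generalize y * x * y⁻¹ = x' at e xJ' xT'
  rcases h3.toCx.supp.cj_or tz tv with ⟨k, k'⟩ | ⟨k, k'⟩ <;> rw [k] at pJ <;> rw [k'] at pJ'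
  · refine fin (mul_mem (inv_mem h.xT) pT) (mul_mem (inv_mem h.xJ) pJ) (mul_mem xT' (inv_mem pT'))
      (mul_mem xJ' (inv_mem pJ')) ?_
    rw [e, mul_assoc x', ← (cJ (mul_mem (inv_mem h.xT) pT) (mul_mem (inv_mem h.xJ) pJ) xT' xJ').eq, mul_assoc]
  · refine fin (mul_mem (inv_mem h.xT) (inv_mem pT')) (mul_mem (inv_mem h.xJ) (inv_mem pJ')) (mul_mem xT' pT)
      (mul_mem xJ' pJ) ?_
    rw [e, ← (cJ (inv_mem h.xT) (inv_mem h.xJ) xT' xJ').eq, mul_assoc x⁻¹, mul_assoc x⁻¹, mul_assoc x⁻¹,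
      (cJ (inv_mem pT') (inv_mem pJ') (mul_mem xT' pT) (mul_mem xJ' pJ)).eq]

end Cfsg.Agent.IQ
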