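import Cfsg.Agent.IQ.Comp

set_option autoImplicit false

namespace Cfsg.Agent.IQ

open Subgroup Cfsg.Agent.H44 Cfsg.Agent.H59
open Cfsg.Agent.H42 (SylIn)

universe u

variable {G : Type u} [Group G] [Finite G]

namespace B2X

omit [Finite G] in
theorem rel {z w y x x' : G} (zz : z * z = 1) (xx : x * x = z) (yz : y * z = z * y) (yy : y * y = w)
    (wx : w * x * w⁻¹ = x⁻¹) (e : y * x * y⁻¹ = x') (c : x * x' = x' * x) :
    x * x' * w = w * (x * x') ∧ x * x' * y * (x * x')⁻¹ = z * y := by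
  have x2 : x' * x' = z := by rw [← e, conj_mul, xx, yz, mul_inv_cancel_right]
  have e2 : y * x' * y⁻¹ = x⁻¹ := by rw [← wx, ← e, ← yy]; group
  have wx' : w * x' * w⁻¹ = x'⁻¹ := by
    calc _ = y * (y * (y * x * y⁻¹) * y⁻¹) * y⁻¹ := by rw [← yy, ← e]; group
      _ = _ := by rw [e, e2, ← e]; group
  have xz : x * z = z * x := by rw [← xx, mul_assoc]
  constructor
  · have : w * (x * x') * w⁻¹ = x * x' := by
      rw [← conj_mul, wx, wx', inv_eq_mul xx zz, inv_eq_mul x2 zz, ← xz, ← mul_assoc, mul_assoc x, zz, mul_one]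
    rw [← this, inv_mul_cancel_right, this]
  · calc _ = x * x' * (y * x' * y⁻¹)⁻¹ * (y * x * y⁻¹)⁻¹ * y := by group
      _ = x * (x' * x) * x'⁻¹ * y := by rw [e, e2]; group
      _ = _ := by rw [← c, ← xx]; group

end B2X

theorem Cf2.exists_cx {J K T S : Subgroup G} {z w y : G} (h : Cf2 J K z w y T S) :
    ∃ x, Cx J K z w y x T S := by
  by_contra hc
  have H : ∀ x ∈ J, x * x = z → x * w ≠ w * x := fun x hx xx xw => by
    obtain ⟨x', h1, h2, h3, h4⟩ := h.fr.exists_four h.gJ hx xx xw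
    exact hc ⟨x', { h with xJ := h1, xT := h2, xS := h3, xx := h4 }⟩
  have zz := h.fr.zz
  have ww := h.fr.ww
  have t2 : Two (y * y) := Two.of_mem h.fr.pT (mul_mem h.yT h.yT)
  obtain ⟨x, ⟨xT, xJ⟩, xx, hx⟩ := h.gJ.q2 (h.gJ.comp.syl h.fr.sT) t2
    (inf_normalizer_le_normalizer_inf ⟨le_normalizer (mul_mem h.yT h.yT), h.y2⟩)
  have hx : y * y * x * (y * y)⁻¹ = x⁻¹ := hx.resolve_left fun k => by
    obtain ⟨i, hi⟩ := h.toCf.w_pow
    exact H x xJ xx (hi ▸ ((show Commute (y * y) x from mul_inv_eq_iff_eq_mul.1 k).pow_left i).symm.eq)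
  have yy : y * y = w := by
    refine (h.gK.uniq _ (mul_mem h.yK h.yK) (by_contra fun k => ?_)).resolve_left h.y4
    obtain ⟨i, hi⟩ := h.gK.pow_four (mul_mem h.yK h.yK) t2 k
    have c : Commute (y * y * (y * y)) x := by
      refine mul_inv_eq_iff_eq_mul.1 ?_
      calc _ = y * y * (y * y * x * (y * y)⁻¹) * (y * y)⁻¹ := by group
        _ = x := by rw [hx, ← conj_inv, hx, inv_inv]
    rw [← (Commute.refl (y * y)).mul_pow] at hi
    exact H x xJ xx (hi ▸ (c.pow_left i).symm.eq)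
  rw [yy] at hx
  have yz := h.fr.cz h.yT
  obtain ⟨uw, uy⟩ := B2X.rel zz xx yz yy hx rfl (h.toCf.comm xJ xT xJ xT)
  have uS := h.fr.mem_S (mul_mem xT (mul_mem (mul_mem h.yT xT) (inv_mem h.yT))) uw
  generalize x * (y * x * y⁻¹) = u at uw uy uS
  have gK' : Good (cj u K) w := h.gK.cj' uw
  have y' : z * y ∈ cj u K := uy ▸ conj_mem_cj h.yK
  have ne : K ≠ cj u K := fun e =>
    h.gJ.not_mem h.gK h.ne ((mul_mem_cancel_right h.yK).1 (e.ge y'))
  obtain ⟨a, ⟨aS, aK⟩, -, ay⟩ := h.gK.q1 (h.gK.comp.syl h.fr.sS) ⟨h.yS, h.yK⟩ yy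
  have ac := h.gK.comp.comm gK'.comp ne h.fr.pS aS (mul_mem h.fr.zS h.yS) aK y'
  have az : a * z * a⁻¹ = z * w := by
    calc _ = a * (z * y) * a⁻¹ * (a * y * a⁻¹)⁻¹ := by group
      _ = _ := by rw [ac, ay, ← yy]; group
  have xz : x * z * x⁻¹ = z := by rw [← xx]; group
  have tz : a * x * z * (a * x)⁻¹ = z * w := by
    calc _ = a * (x * z * x⁻¹) * a⁻¹ := by group
      _ = _ := by rw [xz, az]
  have tw : a * x * w * (a * x)⁻¹ = z := by
    have k : x * w * x⁻¹ = w * z := by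
      calc _ = (w * x * w⁻¹)⁻¹ * w * x⁻¹ := by rw [hx, inv_inv]
        _ = w * (x * x)⁻¹ := by group
        _ = _ := by rw [xx, inv_eq_of_mul_eq_one_left zz]
    calc _ = a * (x * w * x⁻¹) * a⁻¹ := by group
      _ = a * w * a⁻¹ * (a * z * a⁻¹) := by rw [k]; group
      _ = _ := by rw [az, h.fr.cw aS, mul_inv_cancel_right, h.fr.comm, ← mul_assoc, ww, one_mul]
  generalize a * x = θ at tz tw
  have key : ∀ {L : Subgroup G} {v : G}, Good L w → v ∈ L → v * v = w → v * z = z * v →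
      θ * v * θ⁻¹ ∈ DD z J := fun {L v} g hv vv vz => by
    have g' := g.cj θ
    rw [tw] at g'
    refine h.gJ.comp.le_DD g'.comp (fun e => ?_) (conj_mem_cj hv)
    have k : θ * v * θ⁻¹ * (θ * v * θ⁻¹) = z := by rw [conj_mul, vv, tw]
    refine H _ (e.le (conj_mem_cj hv)) k ?_
    have c1 : Commute (θ * v * θ⁻¹) z := k ▸ (Commute.refl _).mul_right (Commute.refl _)
    have c2 : Commute (θ * v * θ⁻¹) (z * w) := by
      rw [← tz]; change _ * _ = _ * _; rw [conj_mul, conj_mul, vz]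
    simpa using (c1.inv_right.mul_right c2).eq
  have k1 := key h.gK h.yK yy yz
  have k2 := key gK' y' (by rw [mul_assoc, ← mul_assoc y, yz, mul_assoc, yy, ← mul_assoc, zz, one_mul])
    (by rw [mul_assoc, yz])
  have k3 : z * w ∈ DD z J := by
    have := mul_mem k2 (inv_mem k1)
    rwa [conj_inv, conj_mul, mul_inv_cancel_right, tz] at this
  exact H x xJ xx (comm_of_DD h.fr.pT h.fr.wT xT ((mul_mem_cancel_left h.gJ.comp.z_mem_DD).1 k3) xJ).symm

end Cfsg.Agent.IQ
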