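import Cfsg.Agent.IQ.Comp

set_option autoImplicit false

namespace Cfsg.Agent.IQ

open Subgroup Cfsg.Agent.H44 Cfsg.Agent.H59
open Cfsg.Agent.H42 (SylIn)

universe u

variable {G : Type u} [Group G] [Finite G]

section
omit [Finite G]

theorem b2a_z (z w : G) : z ∈ closure ({z, w} : Set G) := subset_closure (by simp)

theorem b2a_w (z w : G) : w ∈ closure ({z, w} : Set G) := subset_closure (by simp)

theorem b2a_le {z w : G} {H : Subgroup G} (hz : z ∈ H) (hw : w ∈ H) :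
    closure ({z, w} : Set G) ≤ H := by
  rw [closure_le]
  rintro _ (rfl | rfl)
  exacts [hz, hw]

theorem b2a_comm {z w u e : G} (hz : u * z = z * u) (hw : u * w = w * u)
    (he : e ∈ closure ({z, w} : Set G)) : e * u = u * e :=
  mem_C1.1 (b2a_le (H := C1 u) (mem_C1.2 hz.symm) (mem_C1.2 hw.symm) he)

theorem b2a_conj {z w g e : G} (hz : g * z * g⁻¹ ∈ closure ({z, w} : Set G))
    (hw : g * w * g⁻¹ ∈ closure ({z, w} : Set G)) (he : e ∈ closure ({z, w} : Set G)) :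
    g * e * g⁻¹ ∈ closure ({z, w} : Set G) := by
  have : e ∈ cj g⁻¹ (closure ({z, w} : Set G)) :=
    b2a_le (by rw [mem_cj, inv_inv]; exact hz) (by rw [mem_cj, inv_inv]; exact hw) he
  rwa [mem_cj, inv_inv] at this

theorem b2a_four {z w e : G} (zz : z * z = 1) (ww : w * w = 1) (zw : z * w = w * z)
    (he : e ∈ closure ({z, w} : Set G)) : e = 1 ∨ e = z ∨ e = w ∨ e = z * w := by
  have k1 : z * (z * w) = w := by rw [← mul_assoc, zz, one_mul]
  have k2 : w * (z * w) = z := by rw [zw, ← mul_assoc, ww, one_mul]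
  have zi : z⁻¹ = z := inv_eq_of_mul_eq_one_right zz
  have wi : w⁻¹ = w := inv_eq_of_mul_eq_one_right ww
  have st : ∀ c, (c = z ∨ c = w) → ∀ e, (e = 1 ∨ e = z ∨ e = w ∨ e = z * w) →
      (c * e = 1 ∨ c * e = z ∨ c * e = w ∨ c * e = z * w) := by
    rintro c (rfl | rfl) e (rfl | rfl | rfl | rfl) <;> simp [zz, ww, k1, k2, ← zw]
  induction he using closure_induction_left with
  | one => exact Or.inl rfl
  | mul_left c hc e _ ih => exact st c hc e ih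
  | inv_mul_cancel c hc e _ ih =>
    refine st c⁻¹ ?_ e ih
    rcases hc with rfl | rfl
    exacts [Or.inl zi, Or.inr wi]

theorem b2a_conj_sq {x y z : G} (xx : x * x = z) (yz : y * z = z * y) :
    (y * x * y⁻¹) * (y * x * y⁻¹) = z := by
  calc (y * x * y⁻¹) * (y * x * y⁻¹) = y * (x * x) * y⁻¹ := by group
    _ = z := by rw [xx, yz]; group

theorem b2a_inv_inv {a y : G} (ay : a * y * a⁻¹ = y⁻¹) : a⁻¹ * y * a = y⁻¹ := by
  calc a⁻¹ * y * a = a⁻¹ * (a * y * a⁻¹)⁻¹ * a := by rw [ay, inv_inv]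
    _ = y⁻¹ := by group

theorem b2a_two {a q y : G} (ay : a * y * a⁻¹ = y⁻¹) (qy : q * y * q⁻¹ = y⁻¹) :
    (q * a⁻¹) * y = y * (q * a⁻¹) := by
  calc (q * a⁻¹) * y = q * (a⁻¹ * y * a) * a⁻¹ := by group
    _ = (q * y * q⁻¹)⁻¹ * (q * a⁻¹) := by rw [b2a_inv_inv ay]; group
    _ = y * (q * a⁻¹) := by rw [qy, inv_inv]

theorem b2a_cc {g u c d : G} (hd : g⁻¹ * c * g = d) (hu : u * d = d * u) :
    (g * u * g⁻¹) * c = c * (g * u * g⁻¹) := by
  calc (g * u * g⁻¹) * c = g * (u * (g⁻¹ * c * g)) * g⁻¹ := by group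
    _ = g * ((g⁻¹ * c * g) * u) * g⁻¹ := by rw [hd, hu]
    _ = c * (g * u * g⁻¹) := by group

end

variable {J K T S : Subgroup G} {z w y x n s : G}

theorem Rb.b2a_y' (h : Rb J K z w y x n s T S) : x * y * x⁻¹ = z * w * y := by
  rw [h.xy, inv_eq_mul h.yy h.fr.ww, mul_assoc]

theorem Rb.b2a_gK' (h : Rb J K z w y x n s T S) : Good (cj x K) w := h.gK.cj' (h.fr.cw h.xS)

theorem Rb.b2a_c (h : Rb J K z w y x n s T S) {a b : G} (aK : a ∈ K) (aS : a ∈ S)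
    (bK : b ∈ cj x K) (bS : b ∈ S) : a * b = b * a :=
  Cp.comm h.gK.comp h.b2a_gK'.comp (cj_ne h.xN).symm h.fr.pS aS bS aK bK

theorem Rb.b2a_y'S (h : Rb J K z w y x n s T S) : x * y * x⁻¹ ∈ S :=
  S.mul_mem (S.mul_mem h.xS h.yS) (S.inv_mem h.xS)

theorem Rb.b2a_z (h : Rb J K z w y x n s T S) : (x * y * x⁻¹) * y = z := by
  rw [h.xy]; group

theorem Rb.b2a_supp (h : Rb J K z w y x n s T S) : Supp z w J (cj y J) :=
  h.wx ▸ supp_mul h.gJ h.toCf.gJ' (cj_ne h.yN).symm h.xJ (conj_mem_cj h.xJ) h.xx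
    (b2a_conj_sq h.xx (h.fr.cz h.yT))

theorem Rb.b2a_supp' (h : Rb J K z w y x n s T S) : Supp w z (cj x K) K :=
  h.b2a_z ▸ supp_mul h.b2a_gK' h.gK (cj_ne h.xN) (conj_mem_cj h.yK) h.yK
    (b2a_conj_sq h.yy (h.fr.cw h.xS)) h.yy

theorem Rb.b2a_u0 (h : Rb J K z w y x n s T S) {r : G} (rK : r ∈ K) (rS : r ∈ S)
    (rz : r * z = z * r) : r = 1 ∨ r = y ∨ r = w ∨ r = y⁻¹ := by
  have c1 : Commute r (x * y * x⁻¹) := h.b2a_c rK rS (conj_mem_cj h.yK) h.b2a_y'S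
  have c2 : Commute r z := rz
  have c3 : Commute r y := by
    have e : y = (x * y * x⁻¹)⁻¹ * z := by rw [← h.b2a_z]; group
    rw [e]; exact c1.inv_right.mul_right c2
  have hd : z * y ∈ DD w K := by
    have e : z * y = (x * y * x⁻¹) * w := by
      rw [h.b2a_y', mul_assoc (z * w), h.fr.cw h.yS, ← mul_assoc, mul_assoc z w, h.fr.ww, mul_one]
    rw [e]
    exact mul_mem (Cp.le_DD h.gK.comp h.b2a_gK'.comp (cj_ne h.xN) (conj_mem_cj h.yK))
      h.gK.comp.z_mem_DD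
  exact mem_zpowers_four h.yy h.fr.ww
    (sqrt_cent h.gK h.fr h.yK h.yS h.yy hd h.b2a_supp h.yN rK rS c3.eq)

/-- elements of `S ∩ (K ∪ K')` centralising `z` lie in `V ∪ V y` -/
theorem Rb.b2a_u1 (h : Rb J K z w y x n s T S) {r : G} (rK : r ∈ K ∨ r ∈ cj x K) (rS : r ∈ S)
    (rz : r * z = z * r) :
    r ∈ closure ({z, w} : Set G) ∨ ∃ e ∈ closure ({z, w} : Set G), r = e * y := by
  have hz := IQ.b2a_z z w
  have hw := IQ.b2a_w z w
  rcases rK with rK | rK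
  · rcases h.b2a_u0 rK rS rz with e | e | e | e
    · exact Or.inl (e ▸ one_mem _)
    · exact Or.inr ⟨1, one_mem _, by rw [e, one_mul]⟩
    · exact Or.inl (e ▸ hw)
    · exact Or.inr ⟨w, hw, by rw [e, inv_eq_mul h.yy h.fr.ww]⟩
  · have xz : x * z = z * x := h.fr.cz h.xT
    have xw : x * w = w * x := h.fr.cw h.xS
    have r1 : x⁻¹ * r * x ∈ S := S.mul_mem (S.mul_mem (S.inv_mem h.xS) rS) h.xS
    have r2 : (x⁻¹ * r * x) * z = z * (x⁻¹ * r * x) := by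
      have := b2a_cc (g := x⁻¹) (u := r) (c := z) (d := z) (by rw [inv_inv, xz]; group) rz
      rwa [inv_inv] at this
    have er : r = x * (x⁻¹ * r * x) * x⁻¹ := by group
    rcases h.b2a_u0 (mem_cj.1 rK) r1 r2 with e | e | e | e
    · exact Or.inl (by rw [er, e, mul_one, mul_inv_cancel]; exact one_mem _)
    · exact Or.inr ⟨z * w, mul_mem hz hw, by rw [er, e, h.b2a_y']⟩
    · exact Or.inl (by rw [er, e, xw, mul_inv_cancel_right]; exact hw)
    · refine Or.inr ⟨z, hz, ?_⟩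
      calc r = (x * y * x⁻¹)⁻¹ := by rw [er, e]; group
        _ = y * z⁻¹ := by rw [h.xy]; group
        _ = z * y := by rw [inv_eq_of_mul_eq_one_right h.fr.zz, h.fr.cz h.yT]

theorem Rb.b2a_nw' (h : Rb J K z w y x n s T S) : n⁻¹ * w * n = z * w := by
  calc n⁻¹ * w * n = n⁻¹ * (w * n * w⁻¹) * w := by group
    _ = z * w := by rw [h.wn]; group

theorem Rb.b2a_nw (h : Rb J K z w y x n s T S) : n * w * n⁻¹ = z * w := by
  calc n * w * n⁻¹ = (n * n) * (n⁻¹ * w * n) * (n * n)⁻¹ := by group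
    _ = z * (w * z) * z⁻¹ := by rw [h.nn, h.b2a_nw', h.fr.comm]
    _ = z * w := by group

theorem Rb.b2a_ny (h : Rb J K z w y x n s T S) : n * y * n⁻¹ = s * (z * y) := by
  calc n * y * n⁻¹ = (n * (y * n * y⁻¹)) * y * (n * n)⁻¹ := by group
    _ = s * (z * y) := by
      rw [← h.es, h.nn, inv_eq_of_mul_eq_one_right h.fr.zz, mul_assoc, h.fr.cz h.yT]

theorem Rb.b2a_ns (h : Rb J K z w y x n s T S) : n * s * n⁻¹ = s := by
  have c := h.toCf.comm h.nJ h.nT h.nJ h.nT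
  calc n * s * n⁻¹ = n * (n * (y * n * y⁻¹)) * n⁻¹ := by rw [← h.es]
    _ = n * ((y * n * y⁻¹) * n) * n⁻¹ := by rw [c]
    _ = n * (y * n * y⁻¹) := by group
    _ = s := h.es.symm

theorem Rb.b2a_sv (h : Rb J K z w y x n s T S) : s * (x * y) = (x * y) * s := by
  calc s * (x * y) = (s * x * s⁻¹) * (s * y * s⁻¹) * s := by group
    _ = x⁻¹ * ((x * x) * y) * s := by rw [h.sx, h.sy, h.xx]
    _ = (x * y) * s := by group

theorem Rb.b2a_nv (h : Rb J K z w y x n s T S) : n * (x * y) * n⁻¹ = z * (s * (x * y)) := by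
  have sz : s * z = z * s := h.fr.cz h.sT
  calc n * (x * y) * n⁻¹ = (n * x * n⁻¹) * (n * y * n⁻¹) := by group
    _ = (s * x * s⁻¹) * (s * (z * y)) := by rw [h.inv, h.b2a_ny, h.sx]
    _ = s * (x * z) * y := by group
    _ = (s * z) * (x * y) := by rw [h.fr.cz h.xT]; group
    _ = z * (s * (x * y)) := by rw [sz, mul_assoc]

theorem Rb.b2a_yx (h : Rb J K z w y x n s T S) : y * x⁻¹ = w * (x * y) := by
  calc y * x⁻¹ = (y * x * y⁻¹)⁻¹ * y := by group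
    _ = (x⁻¹ * (x * (y * x * y⁻¹)))⁻¹ * y := by group
    _ = w⁻¹ * (x * y) := by rw [h.wx]; group
    _ = w * (x * y) := by rw [inv_eq_of_mul_eq_one_right h.fr.ww]

theorem Rb.b2a_yv (h : Rb J K z w y x n s T S) : y * (x * y) = z * x := by
  calc y * (x * y) = x⁻¹ * (x * (y * x * y⁻¹)) * (y * y) := by group
    _ = x⁻¹ * (w * w) := by rw [h.wx, h.yy, mul_assoc]
    _ = z * x := by rw [h.fr.ww, mul_one, inv_eq_mul h.xx h.fr.zz]

theorem Rb.exists_a {J K T S : Subgroup G} {z w y x n s : G} (h : Rb J K z w y x n s T S) :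
    ∃ a : G, a * z * a⁻¹ = z * w ∧ a * w * a⁻¹ = w ∧
      (a * s * a⁻¹ = x * y ∨ a * s * a⁻¹ = x * y * z ∨ a * s * a⁻¹ = x * y * w ∨
        a * s * a⁻¹ = x * y * (z * w)) ∧
      a * (x * y) * a⁻¹ ∈ closure {z, w, s, x * y} := by
  have zz := h.fr.zz
  have ww := h.fr.ww
  have hz := IQ.b2a_z z w
  have hw := IQ.b2a_w z w
  have cU : ∀ {u e : G}, u ∈ T → u ∈ S → e ∈ closure ({z, w} : Set G) → e * u = u * e :=
    fun uT uS he => b2a_comm (h.fr.cz uT) (h.fr.cw uS) he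
  obtain ⟨a, ha, aa, ay⟩ := h.gK.q1 (h.gK.comp.syl h.fr.sS) (mem_inf.2 ⟨h.yS, h.yK⟩) h.yy
  obtain ⟨aS, aK⟩ := mem_inf.1 ha
  have y'K : x * y * x⁻¹ ∈ cj x K := conj_mem_cj h.yK
  have y'S := h.b2a_y'S
  have aw : a * w = w * a := h.fr.cw aS
  have aw1 : a * w * a⁻¹ = w := by rw [aw]; group
  have gen : ∀ b, b ∈ K → b ∈ S → b * y * b⁻¹ = y⁻¹ → b * z * b⁻¹ = z * w := by
    intro b bK bS by'
    calc b * z * b⁻¹ = b * (x * y * x⁻¹) * y * b⁻¹ := by rw [← h.b2a_z]; group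
      _ = (x * y * x⁻¹) * (b * y * b⁻¹) := by rw [h.b2a_c bK bS y'K y'S]; group
      _ = (x * y * x⁻¹) * (y * w) := by rw [by', inv_eq_mul h.yy ww, h.fr.cw h.yS]
      _ = z * w := by rw [← mul_assoc, h.b2a_z]
  have az : a * z * a⁻¹ = z * w := gen a aK aS ay
  have az' : a⁻¹ * z * a = z * w := by
    have := gen a⁻¹ (inv_mem aK) (inv_mem aS) (by rw [inv_inv]; exact b2a_inv_inv ay)
    rwa [inv_inv] at this
  have zwU : ∀ {u : G}, u ∈ T → u ∈ S → u * (z * w) = (z * w) * u :=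
    fun uT uS => (cU uT uS (mul_mem hz hw)).symm
  have aS' : ∀ {u : G}, u ∈ S → a * u * a⁻¹ ∈ S := fun uS => mul_mem (mul_mem aS uS) (inv_mem aS)
  have aT' : ∀ {u : G}, u ∈ T → u ∈ S → a * u * a⁻¹ ∈ T :=
    fun uT uS => h.fr.mem_T (aS' uS) (b2a_cc az' (zwU uT uS))
  have nT' : ∀ {u : G}, u ∈ T → n⁻¹ * u * n ∈ T :=
    fun uT => mul_mem (mul_mem (inv_mem h.nT) uT) h.nT
  have nS' : ∀ {u : G}, u ∈ T → u ∈ S → n⁻¹ * u * n ∈ S := fun {u} uT uS => by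
    refine h.fr.mem_S (nT' uT) ?_
    have := b2a_cc (g := n⁻¹) (u := u) (c := w) (d := z * w)
      (by rw [inv_inv]; exact h.b2a_nw) (zwU uT uS)
    rwa [inv_inv] at this
  have nz : n * z * n⁻¹ = z := by rw [h.fr.cz h.nT]; group
  have nV : ∀ {e : G}, e ∈ closure ({z, w} : Set G) → n * e * n⁻¹ ∈ closure ({z, w} : Set G) :=
    fun he => b2a_conj (by rw [nz]; exact hz) (by rw [h.b2a_nw]; exact mul_mem hz hw) he
  have aV : ∀ {e : G}, e ∈ closure ({z, w} : Set G) → a * e * a⁻¹ ∈ closure ({z, w} : Set G) :=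
    fun he => b2a_conj (by rw [az]; exact mul_mem hz hw) (by rw [aw1]; exact hw) he
  -- the element `a'` and `t`
  obtain ⟨a', ha'⟩ : ∃ a', a' = x * a * x⁻¹ := ⟨_, rfl⟩
  have a'K : a' ∈ cj x K := ha' ▸ conj_mem_cj aK
  have a'S : a' ∈ S := ha' ▸ mul_mem (mul_mem h.xS aS) (inv_mem h.xS)
  have a'y : a' * (x * y * x⁻¹) * a'⁻¹ = (x * y * x⁻¹)⁻¹ := by
    calc a' * (x * y * x⁻¹) * a'⁻¹ = x * (a * y * a⁻¹) * x⁻¹ := by rw [ha']; group
      _ = (x * y * x⁻¹)⁻¹ := by rw [ay]; group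
  have a'a' : a' * a' = w := ha' ▸ b2a_conj_sq aa (h.fr.cw h.xS)
  have aa' : a * a' = a' * a := h.b2a_c aK aS a'K a'S
  have ax : a * x * a⁻¹ = w * (a * a') * x := by
    calc a * x * a⁻¹ = a * a'⁻¹ * x := by rw [ha']; group
      _ = (a * w) * a' * x := by rw [inv_eq_mul a'a' ww]; group
      _ = w * (a * a') * x := by rw [aw]; group
  -- supports
  have s1 : Supp (z * w) w (cj a J) (cj a (cj y J)) := by
    have := h.b2a_supp.conj a
    rwa [az, aw1] at this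
  have s2 : Supp (z * w) w (cj n (cj x K)) (cj n K) := by
    have := (h.b2a_supp'.conj n).mul_z
    rwa [h.b2a_nw, nz, ← mul_assoc, zz, one_mul] at this
  have key : ∀ {c : G} {A B : Subgroup G}, c ∈ A → cj n B = cj a A →
      n⁻¹ * (a * c * a⁻¹) * n ∈ B := fun hc e => mem_cj.1 (e ▸ conj_mem_cj hc)
  have rT := nT' (aT' h.xT h.xS)
  have rS := nS' (aT' h.xT h.xS) (aS' h.xS)
  have σT := nT' (aT' h.sT h.sS)
  have σS := nS' (aT' h.sT h.sS) (aS' h.sS)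
  have rK : n⁻¹ * (a * x * a⁻¹) * n ∈ K ∨ n⁻¹ * (a * x * a⁻¹) * n ∈ cj x K := by
    rcases s1.eq_or s2 with e | e
    · exact Or.inr (key h.xJ e.1)
    · exact Or.inl (key h.xJ e.2)
  have σK : n⁻¹ * (a * s * a⁻¹) * n ∈ K ⊔ cj x K := by
    have e0 : n⁻¹ * (a * s * a⁻¹) * n =
        (n⁻¹ * (a * n * a⁻¹) * n) * (n⁻¹ * (a * (y * n * y⁻¹) * a⁻¹) * n) := by
      rw [h.es]; group
    rw [e0]
    rcases s1.eq_or s2 with e | e
    · exact mul_mem (mem_sup_right (key h.nJ e.1)) (mem_sup_left (key (conj_mem_cj h.nJ) e.2))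
    · exact mul_mem (mem_sup_left (key h.nJ e.2)) (mem_sup_right (key (conj_mem_cj h.nJ) e.1))
  -- (T)
  obtain ⟨e1, he1, hr⟩ : ∃ e ∈ closure ({z, w} : Set G), n⁻¹ * (a * x * a⁻¹) * n = e * y := by
    refine (h.b2a_u1 rK rS (h.fr.cz rT)).resolve_left fun hV => ?_
    have rr : (n⁻¹ * (a * x * a⁻¹) * n) * (n⁻¹ * (a * x * a⁻¹) * n) = w := by
      calc (n⁻¹ * (a * x * a⁻¹) * n) * (n⁻¹ * (a * x * a⁻¹) * n)
          = n⁻¹ * (a * (x * x) * a⁻¹) * n := by group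
        _ = (n⁻¹ * (z * n)) * (n⁻¹ * w * n) := by rw [h.xx, az]; group
        _ = z * (z * w) := by rw [← h.fr.cz h.nT, h.b2a_nw']; group
        _ = w := by rw [← mul_assoc, zz, one_mul]
    apply h.gK.z1
    rcases b2a_four zz ww h.fr.comm hV with e | e | e | e <;> rw [← rr, e]
    · exact one_mul 1
    · exact zz
    · exact ww
    · rw [mul_assoc, ← mul_assoc w, ← h.fr.comm, mul_assoc, ww, mul_one, zz]
  obtain ⟨e2, he2, ht⟩ : ∃ e ∈ closure ({z, w} : Set G), a * a' = e * (s * (x * y)) := by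
    refine ⟨w⁻¹ * (n * e1 * n⁻¹) * (z * w), mul_mem (mul_mem (inv_mem hw) (nV he1)) (mul_mem hz hw), ?_⟩
    calc a * a' = w⁻¹ * (n * (n⁻¹ * (a * x * a⁻¹) * n) * n⁻¹) * x⁻¹ := by rw [ax]; group
      _ = w⁻¹ * (n * e1 * n⁻¹) * (n * y * n⁻¹) * x⁻¹ := by rw [hr]; group
      _ = w⁻¹ * (n * e1 * n⁻¹) * (s * z * (y * x⁻¹)) := by rw [h.b2a_ny]; group
      _ = w⁻¹ * (n * e1 * n⁻¹) * ((s * (z * w)) * (x * y)) := by rw [h.b2a_yx]; group
      _ = _ := by rw [zwU h.sT h.sS]; group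
  -- (S)
  obtain ⟨σ, hσ⟩ : ∃ σ, σ = n⁻¹ * (a * s * a⁻¹) * n := ⟨_, rfl⟩
  rw [← hσ] at σT σS σK
  obtain ⟨q, qS, qK, q'K⟩ := prod h.fr.pS (h.gK.comp.syl h.fr.sS)
    (Cp.le_Nz h.b2a_gK'.comp h.gK.comp) σS σK
  obtain ⟨q', hq'⟩ : ∃ q', q' = q⁻¹ * σ := ⟨_, rfl⟩
  rw [← hq'] at q'K
  have q'S : q' ∈ S := hq' ▸ mul_mem (inv_mem qS) σS
  have eσ : σ = q * q' := by rw [hq']; group
  have yq' : y * q' = q' * y := h.b2a_c h.yK h.yS q'K q'S
  have m1K : q' * (x * y * x⁻¹) * q'⁻¹ ∈ cj x K := mul_mem (mul_mem q'K y'K) (inv_mem q'K)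
  have m1S : q' * (x * y * x⁻¹) * q'⁻¹ ∈ S := mul_mem (mul_mem q'S y'S) (inv_mem q'S)
  have em : q * y * q⁻¹ * y⁻¹ = (q' * (x * y * x⁻¹) * q'⁻¹)⁻¹ * (x * y * x⁻¹) := by
    have k : (q' * (x * y * x⁻¹) * q'⁻¹) * (q * y * q⁻¹) = (x * y * x⁻¹) * y := by
      calc (q' * (x * y * x⁻¹) * q'⁻¹) * (q * y * q⁻¹)
          = (q' * (x * y * x⁻¹) * q'⁻¹) * q * y * q⁻¹ := by group
        _ = q * q' * (x * y * x⁻¹) * q'⁻¹ * (y * q') * q'⁻¹ * q⁻¹ := by
          rw [← h.b2a_c qK qS m1K m1S]; group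
        _ = σ * ((x * y * x⁻¹) * y) * σ⁻¹ := by rw [yq', eσ]; group
        _ = (x * y * x⁻¹) * y := by rw [h.b2a_z, h.fr.cz σT]; group
    calc q * y * q⁻¹ * y⁻¹ = (q' * (x * y * x⁻¹) * q'⁻¹)⁻¹ *
          ((q' * (x * y * x⁻¹) * q'⁻¹) * (q * y * q⁻¹)) * y⁻¹ := by group
      _ = _ := by rw [k]; group
  have mK : q * y * q⁻¹ * y⁻¹ ∈ K := mul_mem (mul_mem (mul_mem qK h.yK) (inv_mem qK)) (inv_mem h.yK)
  have mS : q * y * q⁻¹ * y⁻¹ ∈ S := mul_mem (mul_mem (mul_mem qS h.yS) (inv_mem qS)) (inv_mem h.yS)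
  have mD : q * y * q⁻¹ * y⁻¹ ∈ DD w K :=
    Cp.le_DD h.gK.comp h.b2a_gK'.comp (cj_ne h.xN) (em ▸ mul_mem (inv_mem m1K) y'K)
  have vT : x * y ∈ T := mul_mem h.xT h.yT
  have vS : x * y ∈ S := mul_mem h.xS h.yS
  have goal3 : ∃ e ∈ closure ({z, w} : Set G), a * s * a⁻¹ = e * (x * y) := by
    rcases h.gK.eq_of_DD mK (Two.of_mem h.fr.pS mS) mD with e | e
    · exfalso
      have c1 : Commute q y := by
        calc q * y = q * y * q⁻¹ * y⁻¹ * (y * q) := by group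
          _ = y * q := by rw [e, one_mul]
      have c2 : Commute σ y := eσ ▸ c1.mul_left yq'.symm
      have c3 : Commute σ e1 := (cU σT σS he1).symm
      have c4 : σ * (n⁻¹ * (a * x * a⁻¹) * n) = (n⁻¹ * (a * x * a⁻¹) * n) * σ := by
        rw [hr]; exact (c3.mul_right c2).eq
      have c5 : s * x * s⁻¹ = x := by
        calc s * x * s⁻¹ = a⁻¹ * n * (σ * (n⁻¹ * (a * x * a⁻¹) * n)) * n⁻¹ * a * s⁻¹ := by
              rw [hσ]; group
          _ = x := by rw [c4, hσ]; group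
      rw [h.sx, inv_eq_mul h.xx zz, mul_eq_right] at c5
      exact h.gJ.z1 c5
    · have qy : q * y * q⁻¹ = y⁻¹ := by
        rw [inv_eq_mul h.yy ww, ← e]; group
      have q'y : q' * (x * y * x⁻¹) * q'⁻¹ = (x * y * x⁻¹)⁻¹ := by
        have y'y' := b2a_conj_sq h.yy (h.fr.cw h.xS)
        rw [e] at em
        rw [← inv_inj, inv_inv]
        calc (q' * (x * y * x⁻¹) * q'⁻¹)⁻¹
            = ((q' * (x * y * x⁻¹) * q'⁻¹)⁻¹ * (x * y * x⁻¹)) * (x * y * x⁻¹)⁻¹ := by group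
          _ = ((x * y * x⁻¹) * (x * y * x⁻¹)) * (x * y * x⁻¹)⁻¹ := by rw [← em, y'y']
          _ = x * y * x⁻¹ := by group
      have f1K : q * a⁻¹ ∈ K := mul_mem qK (inv_mem aK)
      have f1S : q * a⁻¹ ∈ S := mul_mem qS (inv_mem aS)
      have f2K : q' * a'⁻¹ ∈ cj x K := mul_mem q'K (inv_mem a'K)
      have f2S : q' * a'⁻¹ ∈ S := mul_mem q'S (inv_mem a'S)
      have f1z : (q * a⁻¹) * z = z * (q * a⁻¹) := by
        have c1 : Commute (q * a⁻¹) y := b2a_two ay qy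
        have c2 : Commute (q * a⁻¹) (x * y * x⁻¹) := h.b2a_c f1K f1S y'K y'S
        rw [← h.b2a_z]; exact (c2.mul_right c1).eq
      have f2z : (q' * a'⁻¹) * z = z * (q' * a'⁻¹) := by
        have c1 : Commute (q' * a'⁻¹) y := (h.b2a_c h.yK h.yS f2K f2S).symm
        have c2 : Commute (q' * a'⁻¹) (x * y * x⁻¹) := b2a_two a'y q'y
        rw [← h.b2a_z]; exact (c2.mul_right c1).eq
      have eσ' : σ = (q * a⁻¹) * (q' * a'⁻¹) * (a * a') := by
        calc σ = (q * a⁻¹) * (a * (q' * a'⁻¹)) * a' := by rw [eσ]; group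
          _ = _ := by rw [h.b2a_c aK aS f2K f2S]; group
      have hW : (q * a⁻¹) * (q' * a'⁻¹) ∈ closure ({z, w} : Set G) ∨
          ∃ e ∈ closure ({z, w} : Set G), (q * a⁻¹) * (q' * a'⁻¹) = e * y := by
        rcases h.b2a_u1 (Or.inl f1K) f1S f1z with k1 | ⟨b1, k1, k1'⟩ <;>
          rcases h.b2a_u1 (Or.inr f2K) f2S f2z with k2 | ⟨b2, k2, k2'⟩
        · exact Or.inl (mul_mem k1 k2)
        · exact Or.inr ⟨_, mul_mem k1 k2, by rw [k2', mul_assoc _ b2]⟩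
        · exact Or.inr ⟨_, mul_mem k1 k2, by
            rw [k1', mul_assoc b1 y, ← cU h.yT h.yS k2, ← mul_assoc]⟩
        · refine Or.inl ?_
          rw [k1', k2', mul_assoc b1 y, ← mul_assoc y, ← cU h.yT h.yS k2, mul_assoc b2, h.yy]
          exact mul_mem k1 (mul_mem k2 hw)
      have es' : a * s * a⁻¹ = n * σ * n⁻¹ := by rw [hσ]; group
      have nsv : n * (s * (x * y)) * n⁻¹ = z * (x * y) := by
        calc n * (s * (x * y)) * n⁻¹ = (n * s * n⁻¹) * (n * (x * y) * n⁻¹) := by group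
          _ = (s * z) * (s * (x * y)) := by rw [h.b2a_ns, h.b2a_nv]; group
          _ = z * (s * s) * (x * y) := by rw [h.fr.cz h.sT]; group
          _ = z * (x * y) := by rw [h.ss, mul_one]
      generalize (q * a⁻¹) * (q' * a'⁻¹) = f at eσ' hW
      rcases hW with k | ⟨b, k, k'⟩
      · refine ⟨(n * (f * e2) * n⁻¹) * z, mul_mem (nV (mul_mem k he2)) hz, ?_⟩
        calc a * s * a⁻¹ = (n * (f * e2) * n⁻¹) * (n * (s * (x * y)) * n⁻¹) := by
              rw [es', eσ', ht]; group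
          _ = _ := by rw [nsv]; group
      · exfalso
        have e3 : a * s * a⁻¹ = (n * (b * e2) * n⁻¹) * (s * (z * x)) := by
          calc a * s * a⁻¹ = n * (b * (y * e2) * (s * (x * y))) * n⁻¹ := by
                rw [es', eσ', ht, k']; group
            _ = (n * (b * e2) * n⁻¹) * ((n * y * n⁻¹) * (n * (s * (x * y)) * n⁻¹)) := by
                rw [← cU h.yT h.yS he2]; group
            _ = (n * (b * e2) * n⁻¹) * (s * (z * (y * z)) * (x * y)) := by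
                rw [nsv, h.b2a_ny]; group
            _ = (n * (b * e2) * n⁻¹) * (s * (z * z) * (y * (x * y))) := by
                rw [h.fr.cz h.yT]; group
            _ = _ := by rw [zz, mul_one, h.b2a_yv]
        have zN : z ∈ Nz K := h.toCf.zN
        have VN : closure ({z, w} : Set G) ≤ Nz K := b2a_le zN (le_normalizer h.gK.mem)
        have sx : x⁻¹ * s ∈ Nz K := cj_eq_cj_iff.1 h.sK
        have sx' : s * (z * x) ∈ Nz K := by
          have : s * (z * x) = z * (x⁻¹ * s)⁻¹ := by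
            rw [mul_inv_rev, inv_inv, inv_eq_of_mul_eq_one_right h.ss, ← mul_assoc,
              h.fr.cz h.sT, mul_assoc]
          rw [this]; exact mul_mem zN (inv_mem sx)
        have k4 : a * s * a⁻¹ ∈ Nz K := e3 ▸ mul_mem (VN (nV (mul_mem k he2))) sx'
        have aN : a ∈ Nz K := le_normalizer aK
        have sN : s ∈ Nz K :=
          (Subgroup.mul_mem_cancel_left _ aN).1 ((Subgroup.mul_mem_cancel_right _ (inv_mem aN)).1 k4)
        exact h.xN (inv_mem_iff.1 ((Subgroup.mul_mem_cancel_right _ sN).1 sx))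
  obtain ⟨e3, he3, has⟩ := goal3
  refine ⟨a, az, aw1, ?_, ?_⟩
  · rw [has, cU vT vS he3]
    rcases b2a_four zz ww h.fr.comm he3 with e | e | e | e <;> simp [e]
  · have VF : closure ({z, w} : Set G) ≤ closure {z, w, s, x * y} :=
      b2a_le (subset_closure (by simp)) (subset_closure (by simp))
    have sF : s ∈ closure ({z, w, s, x * y} : Set G) := subset_closure (by simp)
    have vF : x * y ∈ closure ({z, w, s, x * y} : Set G) := subset_closure (by simp)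
    have e : a * (x * y) * a⁻¹ = (a * s * a⁻¹)⁻¹ * (a * e2 * a⁻¹)⁻¹ * (a * a') := by
      calc a * (x * y) * a⁻¹
          = (a * s * a⁻¹)⁻¹ * (a * e2 * a⁻¹)⁻¹ * (a * (e2 * (s * (x * y))) * a⁻¹) := by group
        _ = (a * s * a⁻¹)⁻¹ * (a * e2 * a⁻¹)⁻¹ * (a * (a' * a) * a⁻¹) := by rw [← ht, aa']
        _ = _ := by group
    rw [e, has, ht]
    exact mul_mem (mul_mem (inv_mem (mul_mem (VF he3) vF)) (inv_mem (VF (aV he2))))
      (mul_mem (VF he2) (mul_mem sF vF))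

end Cfsg.Agent.IQ
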