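import Cfsg.Agent.IQ.Comp

set_option autoImplicit false

namespace Cfsg.Agent.IQ

open Subgroup Cfsg.Agent.H44 Cfsg.Agent.H59
open Cfsg.Agent.H42 (SylIn)

universe u

variable {G : Type u} [Group G] [Finite G]

theorem B2e.norm_closure {s : Set G} {g : G} (h : ∀ x ∈ s, g * x * g⁻¹ ∈ closure s) :
    g ∈ Nz (closure s) := by
  refine H42.mem_normalizer_of_conj_mem fun x hx => ?_
  induction hx using closure_induction with
  | mem x hx => exact h x hx
  | one => simp
  | mul x y _ _ h1 h2 =>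
    have : g * (x * y) * g⁻¹ = g * x * g⁻¹ * (g * y * g⁻¹) := by group
    rw [this]; exact mul_mem h1 h2
  | inv x _ h1 =>
    have : g * x⁻¹ * g⁻¹ = (g * x * g⁻¹)⁻¹ := by group
    rw [this]; exact inv_mem h1

theorem B2e.core {z w s v a ζ θ f : G} (h : En z w s v a ζ)
    (hθ : θ ∈ Nz (closure {z, w, s, v})) (h1 : θ * (z * w) * θ⁻¹ = z * w)
    (h2 : θ * w * θ⁻¹ = f) (hf : f = v ∨ f = v * z) : False := by
  have zf : ζ * f * ζ⁻¹ = f := by
    rcases hf with e | e
    · rw [e]; exact h.ζv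
    · rw [e]
      calc ζ * (v * z) * ζ⁻¹ = ζ * v * ζ⁻¹ * (ζ * z * ζ⁻¹) := by group
        _ = v * z := by rw [h.ζv, h.ζz]
  have m1 : Nm f (z * w) := by
    have := (nm_conj (g := θ)).mpr (h.n1.mul (Nm.self w))
    rwa [h1, h2] at this
  have m2 : Nm f (z * s) := by
    have := (nm_conj (g := ζ)).mpr m1
    rw [zf] at this
    have e : ζ * (z * w) * ζ⁻¹ = z * s := by
      calc ζ * (z * w) * ζ⁻¹ = ζ * z * ζ⁻¹ * (ζ * w * ζ⁻¹) := by group
        _ = z * s := by rw [h.ζz, h.ζw]
    rwa [e] at this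
  have m3 : Nm f (z * (w * s)) := by
    have := (nm_conj (g := ζ)).mpr m2
    rw [zf] at this
    have e : ζ * (z * s) * ζ⁻¹ = z * (w * s) := by
      calc ζ * (z * s) * ζ⁻¹ = ζ * z * ζ⁻¹ * (ζ * s * ζ⁻¹) := by group
        _ = z * (w * s) := by rw [h.ζz, h.ζs]
    rwa [e] at this
  have mw : Nm f w := by
    have := m2.inv.mul m3
    have e : (z * s)⁻¹ * (z * (w * s)) = w := by
      calc (z * s)⁻¹ * (z * (w * s)) = s⁻¹ * (w * s) := by group
        _ = w := by rw [h.ws]; group
    rwa [e] at this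
  have mz : Nm f z := by
    have := m1.mul mw.inv
    rwa [mul_inv_cancel_right] at this
  have ms : Nm f s := by
    have := mz.inv.mul m2
    rwa [inv_mul_cancel_left] at this
  have mv : Nm f v := by
    rcases hf with e | e
    · exact e ▸ Nm.self f
    · have := (Nm.self f).mul mz.inv
      rwa [show f * z⁻¹ = v by rw [e, mul_inv_cancel_right]] at this
  have mF : ∀ e ∈ closure ({z, w, s, v} : Set G), Nm f e := by
    intro e he
    induction he using closure_induction with
    | mem x hx =>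
      rcases hx with rfl | rfl | rfl | rfl
      exacts [mz, mw, ms, mv]
    | one => exact fun L _ => one_mem _
    | mul x y _ _ h1 h2 => exact h1.mul h2
    | inv x _ h1 => exact h1.inv
  have := mF _ (H42.conj_mem_of_mem_normalizer hθ (subset_closure (by simp) : v ∈ _))
  rw [← h2] at this
  exact h.n2 (nm_conj.mp this)

theorem En.false {z w s v a ζ : G} (h : En z w s v a ζ) : False := by
  have hz : z ∈ closure ({z, w, s, v} : Set G) := subset_closure (by simp)
  have hw : w ∈ closure ({z, w, s, v} : Set G) := subset_closure (by simp)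
  have hs : s ∈ closure ({z, w, s, v} : Set G) := subset_closure (by simp)
  have hv : v ∈ closure ({z, w, s, v} : Set G) := subset_closure (by simp)
  have ha : a ∈ Nz (closure ({z, w, s, v} : Set G)) := by
    refine B2e.norm_closure fun x hx => ?_
    rcases hx with rfl | rfl | rfl | rfl
    · rw [h.az]; exact mul_mem hz hw
    · rw [h.aw]; exact hw
    · rcases h.as with e | e | e | e <;> rw [e]
      exacts [hv, mul_mem hv hz, mul_mem hv hw, mul_mem hv (mul_mem hz hw)]
    · exact h.av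
  have hζ : ζ ∈ Nz (closure ({z, w, s, v} : Set G)) := by
    refine B2e.norm_closure fun x hx => ?_
    rcases hx with rfl | rfl | rfl | rfl
    · rw [h.ζz]; exact hz
    · rw [h.ζw]; exact hs
    · rw [h.ζs]; exact mul_mem hw hs
    · rw [h.ζv]; exact hv
  obtain ⟨η, hη⟩ : ∃ η, η = a * ζ * a⁻¹ := ⟨_, rfl⟩
  have hηN : η ∈ Nz (closure ({z, w, s, v} : Set G)) :=
    hη ▸ mul_mem (mul_mem ha hζ) (inv_mem ha)
  have key : ∀ c : G, η * (a * c * a⁻¹) * η⁻¹ = a * (ζ * c * ζ⁻¹) * a⁻¹ := fun c => by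
    rw [hη]; group
  have e1 : η * (z * w) * η⁻¹ = z * w := by
    have := key z
    rwa [h.ζz, h.az] at this
  have e2 : η * w * η⁻¹ = a * s * a⁻¹ := by
    have := key w
    rwa [h.ζw, h.aw] at this
  have e3 : η * η * w * (η * η)⁻¹ = w * (a * s * a⁻¹) := by
    calc η * η * w * (η * η)⁻¹ = η * (η * w * η⁻¹) * η⁻¹ := by group
      _ = a * (w * s) * a⁻¹ := by rw [e2, key, h.ζs]
      _ = a * w * a⁻¹ * (a * s * a⁻¹) := by group
      _ = _ := by rw [h.aw]
  have e4 : η * η * (z * w) * (η * η)⁻¹ = z * w := by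
    calc η * η * (z * w) * (η * η)⁻¹ = η * (η * (z * w) * η⁻¹) * η⁻¹ := by group
      _ = z * w := by rw [e1, e1]
  rcases h.as with e | e | e | e
  · exact B2e.core h hηN e1 (e2.trans e) (Or.inl rfl)
  · exact B2e.core h hηN e1 (e2.trans e) (Or.inr rfl)
  · refine B2e.core h (mul_mem hηN hηN) e4 e3 (Or.inl ?_)
    rw [e, ← h.wv, ← mul_assoc, h.ww, one_mul]
  · refine B2e.core h (mul_mem hηN hηN) e4 e3 (Or.inr ?_)
    rw [e, h.zw, ← mul_assoc, ← mul_assoc, h.wv, mul_assoc v w w, h.ww, mul_one]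

end Cfsg.Agent.IQ
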