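import Cfsg.Agent.IQ.LX

set_option autoImplicit false

namespace Cfsg.Agent.IQ

open Subgroup Cfsg.Agent.H44 Cfsg.Agent.H59
open Cfsg.Agent.H42 (SylIn)

universe u

variable {G : Type u} [Group G] [Finite G]

theorem Cn.rb {J K T S : Subgroup G} {z w y x n : G} (h : Cn J K z w y x n T S)
    (wn : w * n * w⁻¹ = n * z) : Rb J K z w y x n (n * (y * n * y⁻¹)) T S := by
  have xN : x ∉ Nz K := h.not_a
  have fr := h.fr
  have zz := fr.zz
  have ww := fr.ww
  obtain ⟨yy, yv⟩ : y * y = w ∧ y * (x * (y * x * y⁻¹)⁻¹) = (x * (y * x * y⁻¹)⁻¹) * y := by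
    rcases h.toCx.lx with e | e
    · exact absurd e.1 xN
    · exact e.2
  have cy := h.toCx.conj_y
  have vv := h.toCx.vv
  have sp := h.toCx.supp
  have cxx := h.toCf.comm h.xJ h.xT h.xJ h.xT
  have cnn := h.toCf.comm h.nJ h.nT h.nJ h.nT
  have cxn := h.toCf.comm h.xJ h.xT h.nJ h.nT
  have cnx := h.toCf.comm h.nJ h.nT h.xJ h.xT
  have yz : y * z = z * y := fr.cz h.yT
  have xz : x * z = z * x := fr.cz h.xT
  have nz : n * z = z * n := fr.cz h.nT
  have yw : y * w = w * y := fr.cw h.yS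
  have xw : x * w = w * x := fr.cw h.xS
  have n'T : y * n * y⁻¹ ∈ T := mul_mem (mul_mem h.yT h.nT) (inv_mem h.yT)
  have x'T : y * x * y⁻¹ ∈ T := mul_mem (mul_mem h.yT h.xT) (inv_mem h.yT)
  have wn' : w * (y * n * y⁻¹) * w⁻¹ = y * n * y⁻¹ * z := by
    calc w * (y * n * y⁻¹) * w⁻¹ = (w * y) * n * (w * y)⁻¹ := by group
      _ = y * (w * n * w⁻¹) * y⁻¹ := by rw [← yw]; group
      _ = y * n * y⁻¹ * (y * z * y⁻¹) := by rw [wn]; group
      _ = _ := by rw [yz, mul_inv_cancel_right]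
  have n'n' : y * n * y⁻¹ * (y * n * y⁻¹) = z := by
    calc y * n * y⁻¹ * (y * n * y⁻¹) = y * (n * n) * y⁻¹ := by group
      _ = z := by rw [h.nn, yz, mul_inv_cancel_right]
  have x'x' : y * x * y⁻¹ * (y * x * y⁻¹) = z := by
    calc y * x * y⁻¹ * (y * x * y⁻¹) = y * (x * x) * y⁻¹ := by group
      _ = z := by rw [h.xx, yz, mul_inv_cancel_right]
  have inv' : y * n * y⁻¹ * (y * x * y⁻¹) * (y * n * y⁻¹)⁻¹ = (y * x * y⁻¹)⁻¹ := by
    calc y * n * y⁻¹ * (y * x * y⁻¹) * (y * n * y⁻¹)⁻¹ = y * (n * x * n⁻¹) * y⁻¹ := by group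
      _ = _ := by rw [h.inv]; group
  have sy : n * (y * n * y⁻¹) * y * (n * (y * n * y⁻¹))⁻¹ = z * y := by
    have e : y * (y * n * y⁻¹) * y⁻¹ = n * z := by
      calc y * (y * n * y⁻¹) * y⁻¹ = (y * y) * n * (y * y)⁻¹ := by group
        _ = n * z := by rw [yy, wn]
    calc n * (y * n * y⁻¹) * y * (n * (y * n * y⁻¹))⁻¹
        = n * (y * n * y⁻¹) * (y * (n * (y * n * y⁻¹))⁻¹ * y⁻¹) * y := by group
      _ = n * (y * n * y⁻¹) * ((y * n * y⁻¹) * (y * (y * n * y⁻¹) * y⁻¹))⁻¹ * y := by group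
      _ = n * (y * n * y⁻¹) * ((y * n * y⁻¹) * (n * z))⁻¹ * y := by rw [e]
      _ = (y * n * y⁻¹) * n * ((y * n * y⁻¹) * (n * z))⁻¹ * y := by rw [cnn]
      _ = (y * n * y⁻¹) * (n * z⁻¹ * n⁻¹) * (y * n * y⁻¹)⁻¹ * y := by group
      _ = z * y := by
        have z1 : z⁻¹ = z := inv_eq_of_mul_eq_one_right zz
        rw [z1, nz, mul_inv_cancel_right, fr.cz n'T, mul_inv_cancel_right]
  generalize hn' : y * n * y⁻¹ = n' at *
  generalize hx' : y * x * y⁻¹ = x' at *
  have n'z : n' * z = z * n' := fr.cz n'T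
  have x'z : x' * z = z * x' := fr.cz x'T
  have sT : n * n' ∈ T := mul_mem h.nT n'T
  have sw : n * n' * w = w * (n * n') := by
    have : w * (n * n') * w⁻¹ = n * n' := by
      calc w * (n * n') * w⁻¹ = w * n * w⁻¹ * (w * n' * w⁻¹) := by group
        _ = n * (z * n') * z := by rw [wn, wn']; group
        _ = n * n' * (z * z) := by rw [← n'z]; group
        _ = _ := by rw [zz, mul_one]
    exact (mul_inv_eq_iff_eq_mul.mp this).symm
  have sS : n * n' ∈ S := fr.mem_S sT sw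
  have ss : n * n' * (n * n') = 1 := by
    calc n * n' * (n * n') = n * (n' * n) * n' := by group
      _ = (n * n) * (n' * n') := by rw [← cnn]; group
      _ = 1 := by rw [h.nn, n'n', zz]
  have sx : n * n' * x * (n * n')⁻¹ = x⁻¹ := by
    calc n * n' * x * (n * n')⁻¹ = n * (n' * x) * n'⁻¹ * n⁻¹ := by group
      _ = n * x * n⁻¹ := by rw [← cxn]; group
      _ = _ := h.inv
  have sx' : n * n' * x' * (n * n')⁻¹ = x'⁻¹ := by
    calc n * n' * x' * (n * n')⁻¹ = n * (n' * x' * n'⁻¹) * n⁻¹ := by group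
      _ = (n * x' * n⁻¹)⁻¹ := by rw [inv']; group
      _ = _ := by rw [cnx, mul_inv_cancel_right]
  have xi : x⁻¹ = z * x := inv_eq_mul h.xx zz
  have x'i : x'⁻¹ = z * x' := inv_eq_mul x'x' zz
  have sv : n * n' * (x * x'⁻¹) = x * x'⁻¹ * (n * n') := by
    have : n * n' * (x * x'⁻¹) * (n * n')⁻¹ = x * x'⁻¹ := by
      calc n * n' * (x * x'⁻¹) * (n * n')⁻¹
          = n * n' * x * (n * n')⁻¹ * (n * n' * x' * (n * n')⁻¹)⁻¹ := by group
        _ = z * x * x' := by rw [sx, sx', inv_inv, xi]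
        _ = _ := by rw [x'i, ← xz, mul_assoc]
    rw [← mul_inv_eq_iff_eq_mul, this]
  have gK' : Good (cj x K) w := h.gK.cj' xw
  have y'K : x * x'⁻¹ * y ∈ cj x K := cy ▸ conj_mem_cj h.yK
  have y'y' : x * x'⁻¹ * y * (x * x'⁻¹ * y) = w := by
    rw [← cy]
    calc x * y * x⁻¹ * (x * y * x⁻¹) = x * (y * y) * x⁻¹ := by group
      _ = w := by rw [yy, xw, mul_inv_cancel_right]
  have yi : y⁻¹ * y⁻¹ = w := by
    rw [← mul_inv_rev, yy]; exact inv_eq_of_mul_eq_one_right ww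
  have sp2 : Supp w (x * x'⁻¹) (cj x K) K := by
    have := supp_mul gK' h.gK (cj_ne xN) y'K (inv_mem h.yK) y'y' yi
    rwa [mul_inv_cancel_right] at this
  have sK : cj (n * n') K = cj x K := by
    rcases sp2.cj_or sw sv with e | e
    · exfalso
      have : z * y ∈ K := by
        rw [← sy, ← e.2]; exact conj_mem_cj h.yK
      exact h.gJ.not_mem h.gK h.ne (by simpa using mul_mem this (inv_mem h.yK))
    · exact e.2
  have zyK : z * y ∈ cj x K := by
    rw [← sy, ← sK]; exact conj_mem_cj h.yK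
  have z1 : z⁻¹ = z := inv_eq_of_mul_eq_one_right zz
  have vz : x * x'⁻¹ * z = x * x' := by
    rw [x'i, ← x'z]
    calc x * (x' * z) * z = x * x' * (z * z) := by group
      _ = _ := by rw [zz, mul_one]
  have wx : x * x' = w := by
    have m : x * x' ∈ cj x K := by
      have := mul_mem y'K (inv_mem zyK)
      rwa [show x * x'⁻¹ * y * (z * y)⁻¹ = x * x'⁻¹ * z⁻¹ by group, z1, vz] at this
    have sq : x * x' * (x * x') = 1 := by
      calc x * x' * (x * x') = x * (x' * x) * x' := by group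
        _ = (x * x) * (x' * x') := by rw [← cxx]; group
        _ = 1 := by rw [h.xx, x'x', zz]
    rcases gK'.uniq _ m sq with e | e
    · exfalso
      apply sp.a
      have : x * x'⁻¹ = z := by
        rw [← vz, mul_eq_one_iff_eq_inv, z1] at e; exact e
      rw [this]; exact h.gJ.comp.z_mem_DD
    · exact e
  have xy : x * y * x⁻¹ = z * y⁻¹ := by
    have e : x * x'⁻¹ = w * z := by
      rw [← wx, ← vz, mul_assoc _ z z, zz, mul_one]
    rw [cy, e, inv_eq_mul yy ww, ← fr.comm, mul_assoc]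
  exact { h with
    es := by rw [hn']
    xN := xN, yy := yy, wx := by rw [hx']; exact wx, wn := wn, xy := xy, sK := sK, sT := sT,
    sS := sS, ss := ss, sy := sy, sx := sx }

end Cfsg.Agent.IQ
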