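import Cfsg.Agent.IQ.Quat

set_option autoImplicit false

namespace Cfsg.Agent.IQ

open Subgroup Cfsg.Agent.H44 Cfsg.Agent.H59
open Cfsg.Agent.H42 (SylIn)
open scoped commutatorElement

universe u

variable {G : Type u} [Group G] [Finite G]

variable {J K L M A B A' B' T S : Subgroup G} {z w g u q a b c x y : G}

omit [Finite G] in
theorem cj_C1 (g z : G) : H44.cj g (C1 z) = C1 (g * z * g⁻¹) := by
  ext a
  rw [mem_cj, mem_C1, mem_C1]
  constructor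
  · intro h
    calc a * (g * z * g⁻¹) = g * (g⁻¹ * a * g * z) * g⁻¹ := by group
      _ = g * z * g⁻¹ * a := by rw [h]; group
  · intro h
    calc g⁻¹ * a * g * z = g⁻¹ * (a * (g * z * g⁻¹)) * g := by group
      _ = z * (g⁻¹ * a * g) := by rw [h]; group

omit [Finite G] in
theorem conj_eq_of_comm (hg : g * z = z * g) : g * z * g⁻¹ = z := by
  rw [hg, mul_inv_cancel_right]

theorem Cp.le (h : Cp z L) : L ≤ C1 z := PComp.le h

theorem Cp.cj (h : Cp z L) (g : G) : Cp (g * z * g⁻¹) (cj g L) := by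
  unfold Cp
  rw [← cj_C1]
  exact PComp.map_inj _ (MulAut.conj g).injective h

theorem Cp.cj' (h : Cp z L) (hg : g * z = z * g) : Cp z (H44.cj g L) := by
  have := h.cj g
  rwa [conj_eq_of_comm hg] at this

theorem Good.cj (h : Good J z) (g : G) : Good (cj g J) (g * z * g⁻¹) := by
  refine ⟨h.comp.cj g, conj_mem_cj h.mem, ?_, ?_, fun t ht tt => ?_⟩
  · rw [conj_mul, h.zz, mul_one, mul_inv_cancel]
  · intro e
    exact h.z1 (by simpa using e)
  · have := h.uniq _ (mem_cj.1 ht)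
      (by calc g⁻¹ * t * g * (g⁻¹ * t * g) = g⁻¹ * (t * t) * g := by group
        _ = 1 := by rw [tt]; group)
    refine this.imp (fun e => ?_) fun e => ?_
    · calc t = g * (g⁻¹ * t * g) * g⁻¹ := by group
        _ = 1 := by rw [e]; group
    · rw [← e]; group

theorem Good.cj' (h : Good J z) (hg : g * z = z * g) : Good (H44.cj g J) z := by
  have := h.cj g
  rwa [conj_eq_of_comm hg] at this

theorem cj_DD (g z : G) (L : Subgroup G) : cj g (DD z L) = DD (g * z * g⁻¹) (cj g L) := by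
  unfold DD
  rw [← cj_C1]
  exact map_Dc_inj _ (MulAut.conj g).injective _ _

theorem mem_DD_cj : g * a * g⁻¹ ∈ DD (g * z * g⁻¹) (cj g L) ↔ a ∈ DD z L := by
  rw [← cj_DD]; exact H42.conj_mem_cj_iff

theorem mem_DD_cj' (hg : g * z = z * g) : g * a * g⁻¹ ∈ DD z (cj g L) ↔ a ∈ DD z L := by
  have := mem_DD_cj (g := g) (a := a) (z := z) (L := L)
  rwa [conj_eq_of_comm hg] at this

theorem cj_ne (h : g ∉ Nz L) : cj g L ≠ L := fun e => h (mem_normalizer_iff_cj.2 e)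

theorem Cp.le_DD (hL : Cp z L) (hM : Cp z M) (hne : M ≠ L) : M ≤ DD z L :=
  le_Dc_of_ne hL hM hne

theorem Cp.le_Nz (hL : Cp z L) (hM : Cp z M) : M ≤ Nz L :=
  (PComp.le_Lof hM).trans (PComp.Lof_le_normalizer hL)

theorem Cp.DD_le_Nz (hL : Cp z L) : DD z L ≤ Nz L := Dc_le_normalizer hL

theorem conj_mem_DD (hz : g * z = z * g) (hg : g ∈ Nz L) (ha : a ∈ DD z L) :
    g * a * g⁻¹ ∈ DD z L := by
  have := (mem_DD_cj' (L := L) hz).2 ha
  rwa [mem_normalizer_iff_cj.1 hg] at this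

theorem Cp.z_mem_DD (hL : Cp z L) : z ∈ DD z L := self_mem_Dc hL.le

theorem comm_of_DD (hT : IsPGroup 2 T) (ha : a ∈ T) (hb : b ∈ T) (haD : a ∈ DD z L)
    (hbL : b ∈ L) : a * b = b * a := by
  have h1 := (mem_Dc.1 haD).2 b hbL
  have h2 : ⁅a, b⁆ ∈ T := T.mul_mem (T.mul_mem (T.mul_mem ha hb) (T.inv_mem ha)) (T.inv_mem hb)
  exact commutatorElement_eq_one_iff_mul_comm.1 (Subgroup.disjoint_def.1
    (disjoint_of_isPGroup_of_coprime hT (pPrimeCoreOf_coprime (C1 z))) h2 h1)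

/-- 2-elements of a common 2-subgroup lying in different 2-components commute. -/
theorem Cp.comm (hL : Cp z L) (hM : Cp z M) (hne : L ≠ M) (hT : IsPGroup 2 T) (ha : a ∈ T)
    (hb : b ∈ T) (haL : a ∈ L) (hbM : b ∈ M) : a * b = b * a :=
  comm_of_DD hT ha hb (hM.le_DD hL hne haL) hbM

theorem syl_of_sn {H : Subgroup G} (h : SN H L) (hT : SylIn 2 T H) : SylIn 2 (T ⊓ L) L := by
  induction h with
  | refl => rwa [inf_eq_left.2 hT.le]
  | step _ _ hle _ hn ih =>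
    have := ih.inf_normal hle hn
    rwa [inf_assoc, inf_eq_right.2 hle] at this

theorem Cp.syl (hL : Cp z L) (hT : SylIn 2 T (C1 z)) : SylIn 2 (T ⊓ L) L := syl_of_sn hL.sn hT

omit [Finite G] in
theorem ne_inv_of_sq (xx : x * x = z) (z1 : z ≠ 1) : x ≠ x⁻¹ := fun e =>
  z1 (by rw [← xx]; nth_rewrite 2 [e]; exact mul_inv_cancel x)

theorem Good.not_DD (g : Good J z) (hq : q ∈ J) (h2 : Two q) (h4 : q * q ≠ 1) :
    q ∉ DD z J := by
  intro hD
  obtain ⟨i, hi⟩ := g.pow_four hq h2 h4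
  obtain ⟨R, hR, hle⟩ := H42.exists_sylIn (h2.pow i).isP (zpowers_le.2 (J.pow_mem hq i))
  have hx := hle (mem_zpowers _)
  obtain ⟨n, hn, -, inv⟩ := g.q1 hR hx hi
  have := comm_of_DD hR.isP hx hn (Subgroup.pow_mem _ hD i) (hR.le hn)
  rw [← this, mul_inv_cancel_right] at inv
  exact ne_inv_of_sq hi g.z1 inv

theorem Good.eq_of_DD (g : Good J z) (hq : q ∈ J) (h2 : Two q) (hD : q ∈ DD z J) :
    q = 1 ∨ q = z :=
  g.uniq q hq (by by_contra h4; exact g.not_DD hq h2 h4 hD)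

theorem Good.norm_of (g : Good K w) (hu : u * w = w * u) (hq : q ∈ K) (h2 : Two q)
    (h4 : q * q ≠ 1) (huq : u * q * u⁻¹ ∈ K) : u ∈ Nz K := by
  by_contra hn
  refine g.not_DD huq (h2.conj u) (fun e => h4 ?_)
    (g.comp.le_DD (g.comp.cj' hu) (cj_ne hn) (conj_mem_cj hq))
  rw [conj_mul] at e
  simpa using e

theorem Good.not_mem (gJ : Good J z) (gK : Good K w) (hne : z ≠ w) : z ∉ K := fun h =>
  (gK.uniq z h gJ.zz).elim gJ.z1 hne

theorem Fr.pT (h : Fr z w T S) : IsPGroup 2 T := h.sT.isP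

theorem Fr.pS (h : Fr z w T S) : IsPGroup 2 S := h.sS.isP

theorem Fr.cz (h : Fr z w T S) (hg : g ∈ T) : g * z = z * g := mem_C1.1 (h.sT.le hg)

theorem Fr.cw (h : Fr z w T S) (hg : g ∈ S) : g * w = w * g := mem_C1.1 (h.sS.le hg)

theorem Fr.mem_S (h : Fr z w T S) (hg : g ∈ T) (hw : g * w = w * g) : g ∈ S := by
  have e := h.sU.eq_of_le (R := T ⊓ C1 w) (h.pT.to_le inf_le_left) (inf_le_inf_right _ h.sT.le)
    (inf_le_inf_left _ h.sS.le)
  have : g ∈ T ⊓ C1 w := ⟨hg, mem_C1.2 hw⟩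
  rw [e] at this
  exact this.2

theorem Fr.mem_T (h : Fr z w T S) (hg : g ∈ S) (hz : g * z = z * g) : g ∈ T := h.symm.mem_S hg hz

/-- a 2-element of `H` centralising the Sylow subgroup `T` of `H` lies in `T` -/
theorem mem_of_cent {H : Subgroup G} (hT : SylIn 2 T H) (h2 : Two g) (hg : g ∈ H)
    (hc : ∀ t ∈ T, t * g = g * t) : g ∈ T := by
  have hn : zpowers g ≤ Nz T := zpowers_le.2 (H42.mem_normalizer_of_conj_mem fun t ht => by
    rw [← hc t ht, mul_inv_cancel_right]; exact ht)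
  have e := hT.eq_of_le (isPGroup_sup_of_le_normalizer hn hT.isP h2.isP)
    (sup_le hT.le (zpowers_le.2 hg)) le_sup_left
  rw [← e]
  exact mem_sup_right (mem_zpowers g)

theorem Fr.zT (h : Fr z w T S) : z ∈ T :=
  mem_of_cent h.sT (Two.of_sq h.zz) (mem_C1.2 rfl) fun _ ht => h.cz ht

theorem Fr.wS (h : Fr z w T S) : w ∈ S := h.symm.zT

theorem Fr.zS (h : Fr z w T S) : z ∈ S := h.mem_S h.zT h.comm

theorem Fr.wT (h : Fr z w T S) : w ∈ T := h.symm.zS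

theorem exists_fr (zz : z * z = 1) (ww : w * w = 1) (zw : z * w = w * z) (h2 : Two g)
    (gz : g * z = z * g) (gw : g * w = w * g) : ∃ T S, Fr z w T S ∧ g ∈ T ∧ g ∈ S := by
  obtain ⟨U, hU, hg⟩ := H42.exists_sylIn (H := C1 z ⊓ C1 w) h2.isP
    (zpowers_le.2 ⟨mem_C1.2 gz, mem_C1.2 gw⟩)
  obtain ⟨T, hT, hUT⟩ := H42.exists_sylIn hU.isP (hU.le.trans inf_le_left)
  obtain ⟨S, hS, hUS⟩ := H42.exists_sylIn hU.isP (hU.le.trans inf_le_right)
  exact ⟨T, S, ⟨zz, ww, zw, hT, hS, hU.of_le_of_isPGroup (le_inf hUT hUS) (inf_le_inf hT.le hS.le)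
    (hT.isP.to_le inf_le_left)⟩, hUT (hg (mem_zpowers g)), hUS (hg (mem_zpowers g))⟩

theorem Fr.exists_four (h : Fr z w T S) (g : Good J z) (hx : x ∈ J) (xx : x * x = z)
    (xw : x * w = w * x) : ∃ x' ∈ J, x' ∈ T ∧ x' ∈ S ∧ x' * x' = z := by
  have hs := syl_of_sn (g.comp.sn.inf_right (C1 w)) h.sU
  obtain ⟨k, hk, hc⟩ := hs.exists_conj (Two.of_four xx g.zz).isP
    (zpowers_le.2 ⟨hx, mem_C1.2 xw⟩)
  have := hc x (mem_zpowers x)
  refine ⟨_, this.2.1, this.1.1, this.1.2, ?_⟩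
  rw [conj_mul, xx, conj_eq_of_comm (mem_C1.1 (g.comp.le hk.1))]

theorem prod (hT : IsPGroup 2 T) (hQ : SylIn 2 (T ⊓ L) L) (hn : L ≤ Nz M) (hg : g ∈ T)
    (hLM : g ∈ L ⊔ M) : ∃ q ∈ T, q ∈ L ∧ q⁻¹ * g ∈ M := by
  have hgN : g ∈ Nz M := (sup_le hn le_normalizer) hLM
  obtain ⟨l, hl, m, hm, e⟩ := H42.exists_mul_of_mem_sup hn hLM
  set X := L ⊓ ((T ⊓ Nz M) ⊔ M) with hX
  have hXN : X ≤ Nz M := inf_le_left.trans hn
  have hs : SylIn 2 (T ⊓ L) X :=
    hQ.of_le (le_inf inf_le_right ((inf_le_inf_left _ hn).trans le_sup_left)) inf_le_left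
  have hN : X ≤ Nz (M ⊓ X) := fun r hr => H42.mem_normalizer_of_conj_mem fun t ht =>
    ⟨H42.conj_mem_of_mem_normalizer (hXN hr) ht.1, X.mul_mem (X.mul_mem hr ht.2) (X.inv_mem hr)⟩
  haveI : ((M ⊓ X).subgroupOf X).Normal := (normal_subgroupOf_iff_le_normalizer inf_le_right).2 hN
  have hp : IsPGroup 2 (X ⧸ (M ⊓ X).subgroupOf X) := by
    intro r
    obtain ⟨⟨r, hr⟩, rfl⟩ := QuotientGroup.mk_surjective r
    obtain ⟨t, ht, m', hm', rfl⟩ := H42.exists_mul_of_mem_sup inf_le_right hr.2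
    obtain ⟨k, hk⟩ := Two.of_mem hT ht.1
    have key : ∀ j : ℕ, (t ^ j)⁻¹ * (t * m') ^ j ∈ M := fun j => by
      induction j with
      | zero => simp
      | succ j ih =>
        have := M.mul_mem (H42.conj_mem_of_mem_normalizer ((Nz M).inv_mem ht.2) ih) hm'
        convert this using 1
        rw [pow_succ, pow_succ]; group
    refine ⟨k, ?_⟩
    rw [← QuotientGroup.mk_pow, QuotientGroup.eq_one_iff, mem_subgroupOf]
    have := key (2 ^ k)
    rw [hk, inv_one, one_mul] at this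
    exact ⟨this, X.pow_mem hr _⟩
  obtain ⟨k, hk⟩ := hp.exists_card_eq
  have hlX : l ∈ X := ⟨hl, by
    rw [show l = g * m⁻¹ by rw [e]; group]
    exact mul_mem (mem_sup_left ⟨hg, hgN⟩) (mem_sup_right (M.inv_mem hm))⟩
  obtain ⟨s, hs', m', hm', e'⟩ := hs.exists_mul_of_relIndex_pow inf_le_right hN (k := k) hk hlX
  refine ⟨s, hs'.1, hs'.2, ?_⟩
  rw [e, e', show s⁻¹ * (s * m' * m) = m' * m by group]
  exact M.mul_mem hm'.1 hm

theorem supp_mul (gA : Good A z) (gB : Good B z) (hne : A ≠ B) (ha : a ∈ A) (hb : b ∈ B)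
    (aa : a * a = z) (bb : b * b = z) : Supp z (a * b) A B := by
  refine ⟨gA.comp, gB.comp, hne, fun h => ?_, fun h => ?_, fun L hL h1 h2 => ?_⟩
  · exact gA.not_DD ha (Two.of_four aa gA.zz) (aa ▸ gA.z1)
      ((Subgroup.mul_mem_cancel_right _ (gA.comp.le_DD gB.comp hne.symm hb)).1 h)
  · exact gB.not_DD hb (Two.of_four bb gA.zz) (bb ▸ gA.z1)
      ((Subgroup.mul_mem_cancel_left _ (gB.comp.le_DD gA.comp hne ha)).1 h)
  · exact mul_mem (hL.le_DD gA.comp h1.symm ha) (hL.le_DD gB.comp h2.symm hb)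

theorem Supp.symm (h : Supp z g A B) : Supp z g B A :=
  ⟨h.cB, h.cA, h.ne.symm, h.b, h.a, fun L hL h1 h2 => h.o L hL h2 h1⟩

theorem Supp.conj (h : Supp z g A B) (u : G) :
    Supp (u * z * u⁻¹) (u * g * u⁻¹) (cj u A) (cj u B) := by
  refine ⟨h.cA.cj u, h.cB.cj u, fun e => h.ne (H42.cj_inj.1 e), fun e => h.a (mem_DD_cj.1 e),
    fun e => h.b (mem_DD_cj.1 e), fun L hL h1 h2 => ?_⟩
  have e : L = cj u (cj u⁻¹ L) := (H42.cj_cj_inv u L).symm
  have hL' := hL.cj u⁻¹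
  rw [show u⁻¹ * (u * z * u⁻¹) * u⁻¹⁻¹ = z by group] at hL'
  rw [e, mem_DD_cj]
  exact h.o _ hL' (fun e' => h1 (by rw [e, e'])) fun e' => h2 (by rw [e, e'])

theorem Supp.mul_z (h : Supp z g A B) : Supp z (g * z) A B :=
  ⟨h.cA, h.cB, h.ne, fun e => h.a ((Subgroup.mul_mem_cancel_right _ h.cA.z_mem_DD).1 e),
    fun e => h.b ((Subgroup.mul_mem_cancel_right _ h.cB.z_mem_DD).1 e),
    fun L hL h1 h2 => mul_mem (h.o L hL h1 h2) hL.z_mem_DD⟩

theorem Supp.eq_or (h : Supp z g A B) (h' : Supp z g A' B') :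
    (A' = A ∧ B' = B) ∨ (A' = B ∧ B' = A) := by
  have h1 : A' = A ∨ A' = B := by
    by_contra hc
    exact h'.a (h.o _ h'.cA (fun e => hc (Or.inl e)) fun e => hc (Or.inr e))
  have h2 : B' = A ∨ B' = B := by
    by_contra hc
    exact h'.b (h.o _ h'.cB (fun e => hc (Or.inl e)) fun e => hc (Or.inr e))
  rcases h1 with h1 | h1 <;> rcases h2 with h2 | h2
  · exact (h'.ne (h1.trans h2.symm)).elim
  · exact Or.inl ⟨h1, h2⟩
  · exact Or.inr ⟨h1, h2⟩
  · exact (h'.ne (h1.trans h2.symm)).elim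

theorem Supp.cj_or (h : Supp z g A B) (uz : u * z = z * u) (ug : u * g = g * u) :
    (cj u A = A ∧ cj u B = B) ∨ (cj u A = B ∧ cj u B = A) := by
  have := h.conj u
  rw [conj_eq_of_comm uz, conj_eq_of_comm ug] at this
  exact h.eq_or this

/-- the `Sqrt` lemma; use it with `fr.symm` for the other side -/
theorem sqrt_cent (gK : Good K w) (fr : Fr z w T S) (yK : y ∈ K) (yS : y ∈ S) (yy : y * y = w)
    (hd : z * y ∈ DD w K) (hs : Supp z w A B) (yN : y ∉ Nz A) (cK : c ∈ K) (cS : c ∈ S)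
    (cy : c * y = y * c) : c ∈ zpowers y := by
  rcases gK.sqrt (gK.comp.syl fr.sS) ⟨yS, yK⟩ yy ⟨cS, cK⟩ cy with h | ⟨ρ, hρ, e⟩
  · exact h
  exfalso
  have h1 := comm_of_DD fr.pS (S.mul_mem fr.zS yS) hρ.1 hd hρ.2
  have h2 : ρ * z = z * ρ := by
    have : y * ρ = ρ * y := by rw [← e]; group
    calc ρ * z = ρ * (z * y) * y⁻¹ := by group
      _ = z * ρ := by rw [← h1, mul_assoc z, this]; group
  apply yN
  rw [mem_normalizer_iff_cj, ← e, cj_mul]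
  rcases hs.cj_or h2 (fr.cw hρ.1) with ⟨e1, -⟩ | ⟨e1, e2⟩
  · rw [e1, e1]
  · rw [e1, e2]

theorem Cf.zN (h : Cf J K z w y T S) : z ∈ Nz K :=
  h.gK.norm_of h.fr.comm h.yK (Two.of_mem h.fr.pT h.yT) h.y4
    (by rw [← h.fr.cz h.yT, mul_inv_cancel_right]; exact h.yK)

theorem Cf.w_pow (h : Cf J K z w y T S) : ∃ i : ℕ, (y * y) ^ i = w := by
  obtain ⟨i, hi⟩ := h.gK.pow_four h.yK (Two.of_mem h.fr.pT h.yT) h.y4
  exact ⟨i, by rw [← hi, ← pow_add, ← sq, ← pow_mul, two_mul]⟩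

theorem Cf.gJ' (h : Cf J K z w y T S) : Good (cj y J) z := h.gJ.cj' (h.fr.cz h.yT)

/-- elements of `T ∩ J` commute with the `y`-conjugates of elements of `T ∩ J` -/
theorem Cf.comm (h : Cf J K z w y T S) (ha : a ∈ J) (haT : a ∈ T) (hb : b ∈ J) (hbT : b ∈ T) :
    a * (y * b * y⁻¹) = (y * b * y⁻¹) * a :=
  h.gJ.comp.comm h.gJ'.comp (cj_ne h.yN).symm h.fr.pT haT
    (T.mul_mem (T.mul_mem h.yT hbT) (T.inv_mem h.yT)) ha (conj_mem_cj hb)

theorem Nm.mul {f e e' : G} (h : Nm f e) (h' : Nm f e') : Nm f (e * e') :=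
  fun L hL => mul_mem (h L hL) (h' L hL)

theorem Nm.inv {f e : G} (h : Nm f e) : Nm f e⁻¹ := fun L hL => inv_mem (h L hL)

theorem Nm.self (f : G) : Nm f f := fun _ hL => hL.DD_le_Nz hL.z_mem_DD

theorem Nm.conj {f e : G} (h : Nm f e) (g : G) : Nm (g * f * g⁻¹) (g * e * g⁻¹) := by
  intro L hL
  have hL' := hL.cj g⁻¹
  rw [show g⁻¹ * (g * f * g⁻¹) * g⁻¹⁻¹ = f by group] at hL'
  have := H42.conj_mem_cj (g := g) (h _ hL')
  rwa [H42.cj_normalizer, H42.cj_cj_inv] at this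

theorem nm_conj {f e : G} : Nm (g * f * g⁻¹) (g * e * g⁻¹) ↔ Nm f e :=
  ⟨fun h => by
    have := h.conj g⁻¹
    rwa [show g⁻¹ * (g * f * g⁻¹) * g⁻¹⁻¹ = f by group,
      show g⁻¹ * (g * e * g⁻¹) * g⁻¹⁻¹ = e by group] at this, fun h => h.conj g⟩

end Cfsg.Agent.IQ
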