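import Cfsg.Agent.H59.Pump
import Cfsg.Agent.H42.SylIn

/-! Project IQ: 2-components with a unique involution.  Definitions. -/

set_option autoImplicit false

namespace Cfsg.Agent.IQ

open Subgroup Cfsg.Agent.H44 Cfsg.Agent.H59
open Cfsg.Agent.H42 (SylIn)

universe u

variable {G : Type u} [Group G]

/-- a 2-element -/
def Two (g : G) : Prop := ∃ k : ℕ, g ^ 2 ^ k = 1

abbrev Nz (L : Subgroup G) : Subgroup G := normalizer (L : Set G)

/-- `L` is a 2-component of `C(z)` -/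
abbrev Cp (z : G) (L : Subgroup G) : Prop := PComp 2 (C1 z) L

/-- the elements of `C(z)` centralising `L` modulo `O(C(z))` -/
abbrev DD (z : G) (L : Subgroup G) : Subgroup G := Dc 2 (C1 z) L

/-- `J` is a 2-component of the centraliser of its unique involution `z` -/
structure Good (J : Subgroup G) (z : G) : Prop where
  comp : Cp z J
  mem : z ∈ J
  zz : z * z = 1
  z1 : z ≠ 1
  uniq : ∀ t ∈ J, t * t = 1 → t = 1 ∨ t = z

/-- `g` acts nontrivially exactly on the 2-components `A`, `B` of `C(z)` -/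
structure Supp (z g : G) (A B : Subgroup G) : Prop where
  cA : Cp z A
  cB : Cp z B
  ne : A ≠ B
  a : g ∉ DD z A
  b : g ∉ DD z B
  o : ∀ L, Cp z L → L ≠ A → L ≠ B → g ∈ DD z L

/-- `e` normalises every 2-component of `C(f)` -/
def Nm (f e : G) : Prop := ∀ L, Cp f L → e ∈ Nz L

/-- Sylow 2-subgroups of `C(z)`, `C(w)` meeting in a Sylow 2-subgroup of `C(z, w)` -/
structure Fr (z w : G) (T S : Subgroup G) : Prop where
  zz : z * z = 1
  ww : w * w = 1
  comm : z * w = w * z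
  sT : SylIn 2 T (C1 z)
  sS : SylIn 2 S (C1 w)
  sU : SylIn 2 (T ⊓ S) (C1 z ⊓ C1 w)

/-- a counterexample to part (i) -/
structure Cf (J K : Subgroup G) (z w y : G) (T S : Subgroup G) : Prop where
  gJ : Good J z
  gK : Good K w
  ne : z ≠ w
  fr : Fr z w T S
  yK : y ∈ K
  yT : y ∈ T
  yS : y ∈ S
  y4 : y * y ≠ 1
  yN : y ∉ Nz J

structure Cf2 (J K : Subgroup G) (z w y : G) (T S : Subgroup G) : Prop extends Cf J K z w y T S where
  y2 : y * y ∈ Nz J

structure Cx (J K : Subgroup G) (z w y x : G) (T S : Subgroup G) : Prop extends Cf2 J K z w y T S where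
  xJ : x ∈ J
  xT : x ∈ T
  xS : x ∈ S
  xx : x * x = z

structure Cn (J K : Subgroup G) (z w y x n : G) (T S : Subgroup G) : Prop extends Cx J K z w y x T S where
  nJ : n ∈ J
  nT : n ∈ T
  nn : n * n = z
  inv : n * x * n⁻¹ = x⁻¹

/-- the relations in the last case; `s = n * (y * n * y⁻¹)` -/
structure Rb (J K : Subgroup G) (z w y x n s : G) (T S : Subgroup G) : Prop extends Cn J K z w y x n T S where
  es : s = n * (y * n * y⁻¹)
  xN : x ∉ Nz K
  yy : y * y = w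
  wx : x * (y * x * y⁻¹) = w
  wn : w * n * w⁻¹ = n * z
  xy : x * y * x⁻¹ = z * y⁻¹
  sK : cj s K = cj x K
  sT : s ∈ T
  sS : s ∈ S
  ss : s * s = 1
  sy : s * y * s⁻¹ = z * y
  sx : s * x * s⁻¹ = x⁻¹

/-- the endgame: two elements normalising the elementary group `⟨z, w, s, v⟩` -/
structure En (z w s v a ζ : G) : Prop where
  zz : z * z = 1
  ww : w * w = 1
  ss : s * s = 1
  vv : v * v = 1
  zw : z * w = w * z
  zs : z * s = s * z
  zv : z * v = v * z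
  ws : w * s = s * w
  wv : w * v = v * w
  sv : s * v = v * s
  az : a * z * a⁻¹ = z * w
  aw : a * w * a⁻¹ = w
  as : a * s * a⁻¹ = v ∨ a * s * a⁻¹ = v * z ∨ a * s * a⁻¹ = v * w ∨ a * s * a⁻¹ = v * (z * w)
  av : a * v * a⁻¹ ∈ closure {z, w, s, v}
  ζz : ζ * z * ζ⁻¹ = z
  ζw : ζ * w * ζ⁻¹ = s
  ζs : ζ * s * ζ⁻¹ = w * s
  ζv : ζ * v * ζ⁻¹ = v
  n1 : Nm w z
  n2 : ¬ Nm w v

theorem mem_C1 {x y : G} : y ∈ C1 x ↔ y * x = x * y := mem_centralizer_singleton_iff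

theorem Two.of_mem {T : Subgroup G} (hT : IsPGroup 2 T) {g : G} (hg : g ∈ T) : Two g := by
  obtain ⟨k, hk⟩ := hT ⟨g, hg⟩
  exact ⟨k, congrArg Subtype.val hk⟩

theorem Two.of_sq {g : G} (h : g * g = 1) : Two g := ⟨1, by rw [pow_one, sq, h]⟩

theorem Two.of_four {x z : G} (h : x * x = z) (hz : z * z = 1) : Two x :=
  ⟨2, by rw [show 2 ^ 2 = 2 * 2 from rfl, pow_mul, sq, sq, h, hz]⟩

theorem Two.pow {g : G} (h : Two g) (i : ℕ) : Two (g ^ i) := by
  obtain ⟨k, hk⟩ := h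
  exact ⟨k, by rw [← pow_mul, mul_comm, pow_mul, hk, one_pow]⟩

theorem Two.inv {g : G} (h : Two g) : Two g⁻¹ := by
  obtain ⟨k, hk⟩ := h
  exact ⟨k, by rw [inv_pow, hk, inv_one]⟩

theorem Two.conj {g : G} (h : Two g) (u : G) : Two (u * g * u⁻¹) := by
  obtain ⟨k, hk⟩ := h
  exact ⟨k, by rw [conj_pow, hk, mul_one, mul_inv_cancel]⟩

theorem Two.isP {g : G} (h : Two g) : IsPGroup 2 (zpowers g) := by
  obtain ⟨k, hk⟩ := h
  rintro ⟨_, i, rfl⟩
  refine ⟨k, Subtype.ext ?_⟩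
  change (g ^ i) ^ 2 ^ k = 1
  rw [← zpow_natCast, ← zpow_mul, mul_comm, zpow_mul, zpow_natCast, hk, one_zpow]

theorem inv_eq_mul {x z : G} (h : x * x = z) (hz : z * z = 1) : x⁻¹ = z * x := by
  rw [inv_eq_iff_mul_eq_one, ← h, ← mul_assoc, ← mul_assoc, mul_assoc (x * x), h, hz]

theorem mem_zpowers_four {x z c : G} (h : x * x = z) (hz : z * z = 1) (hc : c ∈ zpowers x) :
    c = 1 ∨ c = x ∨ c = z ∨ c = x⁻¹ := by
  obtain ⟨i, rfl⟩ := hc
  have e : x ^ (4 : ℤ) = 1 := by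
    rw [show (4 : ℤ) = 2 * 2 from rfl, zpow_mul, zpow_two, zpow_two, h, hz]
  have k : ∀ r : ℤ, i % 4 = r → x ^ i = x ^ r := fun r hr => by
    rw [← Int.mul_ediv_add_emod i 4, zpow_add, zpow_mul, e, one_zpow, one_mul, hr]
  have : i % 4 = 0 ∨ i % 4 = 1 ∨ i % 4 = 2 ∨ i % 4 = 3 := by omega
  rcases this with r | r | r | r
  · exact Or.inl ((k _ r).trans (zpow_zero x))
  · exact Or.inr (Or.inl ((k _ r).trans (zpow_one x)))
  · exact Or.inr (Or.inr (Or.inl ((k _ r).trans ((zpow_two x).trans h))))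
  · refine Or.inr (Or.inr (Or.inr ((k _ r).trans (eq_inv_of_mul_eq_one_left ?_))))
    rw [← zpow_add_one]; exact e

theorem Fr.symm {z w : G} {T S : Subgroup G} (h : Fr z w T S) : Fr w z S T :=
  ⟨h.ww, h.zz, h.comm.symm, h.sS, h.sT, by rw [inf_comm S, inf_comm (C1 w)]; exact h.sU⟩

end Cfsg.Agent.IQ
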