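import Cfsg.Agent.IQ.Comp

set_option autoImplicit false

namespace Cfsg.Agent.IQ

open Subgroup Cfsg.Agent.H44 Cfsg.Agent.H59
open Cfsg.Agent.H42 (SylIn)

universe u

variable {G : Type u} [Group G] [Finite G]

omit [Finite G] in
theorem lx_conj_sq {x y z : G} (xx : x * x = z) (yz : y * z = z * y) :
    (y * x * y⁻¹) * (y * x * y⁻¹) = z := by
  calc (y * x * y⁻¹) * (y * x * y⁻¹) = y * (x * x) * y⁻¹ := by group
    _ = z := by rw [xx, yz]; group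

omit [Finite G] in
theorem lx_inv_sq {x z : G} (xx : x * x = z) (zz : z * z = 1) : x⁻¹ * x⁻¹ = z := by
  rw [← mul_inv_rev, xx, inv_eq_iff_mul_eq_one, zz]

omit [Finite G] in
theorem lx_inv_conj {x n z : G} (xx : x * x = z) (inv : n * x * n⁻¹ = x⁻¹) :
    x * n * x⁻¹ = z * n := by
  have e : n * x⁻¹ * n⁻¹ = x := by
    calc n * x⁻¹ * n⁻¹ = (n * x * n⁻¹)⁻¹ := by group
      _ = x := by rw [inv, inv_inv]
  calc x * n * x⁻¹ = x * (n * x⁻¹ * n⁻¹) * n := by group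
    _ = z * n := by rw [e, xx]

omit [Finite G] in
theorem lx_inv_conj' {x n z : G} (xx : x * x = z) (zz : z * z = 1) (inv : n * x * n⁻¹ = x⁻¹) :
    x⁻¹ * n * x = z * n := by
  calc x⁻¹ * n * x = x⁻¹ * (n * x * n⁻¹) * n := by group
    _ = z * n := by rw [inv, lx_inv_sq xx zz]

omit [Finite G] in
theorem lx_zpow_inv {x y c : G} (h : x * y * x⁻¹ = y⁻¹) (hc : c ∈ zpowers y) :
    x * c * x⁻¹ = c⁻¹ := by
  obtain ⟨i, rfl⟩ := hc
  change x * y ^ i * x⁻¹ = (y ^ i)⁻¹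
  rw [← conj_zpow, h, inv_zpow]

set_option linter.unusedSectionVars false in
theorem Cx.conj_y {J K T S : Subgroup G} {z w y x : G} (h : Cx J K z w y x T S) :
    x * y * x⁻¹ = x * (y * x * y⁻¹)⁻¹ * y := by group

theorem Cx.supp {J K T S : Subgroup G} {z w y x : G} (h : Cx J K z w y x T S) :
    Supp z (x * (y * x * y⁻¹)⁻¹) J (cj y J) :=
  supp_mul h.gJ h.toCf.gJ' (cj_ne h.yN).symm h.xJ (inv_mem (conj_mem_cj h.xJ)) h.xx
    (lx_inv_sq (lx_conj_sq h.xx (h.fr.cz h.yT)) h.fr.zz)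

theorem Cx.vv {J K T S : Subgroup G} {z w y x : G} (h : Cx J K z w y x T S) :
    (x * (y * x * y⁻¹)⁻¹) * (x * (y * x * y⁻¹)⁻¹) = 1 := by
  have c : Commute x (y * x * y⁻¹) := h.toCf.comm h.xJ h.xT h.xJ h.xT
  have e := lx_inv_sq (lx_conj_sq h.xx (h.fr.cz h.yT)) h.fr.zz
  generalize y * x * y⁻¹ = x' at c e
  calc x * x'⁻¹ * (x * x'⁻¹) = x * (x'⁻¹ * x) * x'⁻¹ := by group
    _ = (x * x) * (x'⁻¹ * x'⁻¹) := by rw [← c.inv_right.eq]; group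
    _ = 1 := by rw [h.xx, e, h.fr.zz]

theorem Cx.lx {J K T S : Subgroup G} {z w y x : G} (h : Cx J K z w y x T S) :
    (x ∈ Nz K ∧ w = x * (y * x * y⁻¹)⁻¹) ∨
      (x ∉ Nz K ∧ y * y = w ∧ y * (x * (y * x * y⁻¹)⁻¹) = (x * (y * x * y⁻¹)⁻¹) * y) := by
  by_cases hx : x ∈ Nz K
  · refine Or.inl ⟨hx, ?_⟩
    have h1 : x * y * x⁻¹ ∈ K := H42.conj_mem_of_mem_normalizer hx h.yK
    rw [h.conj_y] at h1
    have h2 : x * (y * x * y⁻¹)⁻¹ ∈ K := (K.mul_mem_cancel_right h.yK).1 h1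
    rcases h.gK.uniq _ h2 h.vv with e | e
    · exact absurd (e ▸ one_mem _) h.supp.a
    · exact e.symm
  · have xw : x * w = w * x := h.fr.cw h.xS
    have c1 : y * (x * y * x⁻¹) = (x * y * x⁻¹) * y :=
      Cp.comm h.gK.comp (h.gK.comp.cj' xw) (cj_ne hx).symm h.fr.pS h.yS
        (S.mul_mem (S.mul_mem h.xS h.yS) (S.inv_mem h.xS)) h.yK (conj_mem_cj h.yK)
    have c2 : y * (x * (y * x * y⁻¹)⁻¹) = (x * (y * x * y⁻¹)⁻¹) * y := by
      rw [h.conj_y, ← mul_assoc] at c1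
      exact mul_right_cancel c1
    refine Or.inr ⟨hx, ?_, c2⟩
    have yyT : y * y ∈ T := T.mul_mem h.yT h.yT
    have j2 : (y * y) * x * (y * y)⁻¹ ∈ J := H42.conj_mem_of_mem_normalizer h.y2 h.xJ
    have t2 : (y * y) * x * (y * y)⁻¹ ∈ T := T.mul_mem (T.mul_mem yyT h.xT) (T.inv_mem yyT)
    have c3 : Commute ((y * y) * x * (y * y)⁻¹) (y * x * y⁻¹) := h.toCf.comm j2 t2 h.xJ h.xT
    have e1 : (y * x * y⁻¹) * ((y * y) * x * (y * y)⁻¹)⁻¹ = x * (y * x * y⁻¹)⁻¹ := by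
      calc (y * x * y⁻¹) * ((y * y) * x * (y * y)⁻¹)⁻¹
          = y * (x * (y * x * y⁻¹)⁻¹) * y⁻¹ := by group
        _ = x * (y * x * y⁻¹)⁻¹ := by rw [c2]; group
    have e0 := lx_conj_sq h.xx (h.fr.cz h.yT)
    have e2 : (y * y) * x * (y * y)⁻¹ = x := by
      generalize (y * y) * x * (y * y)⁻¹ = x'' at c3 e1
      generalize y * x * y⁻¹ = x' at c3 e1 e0
      have e3 : z * x''⁻¹ = x := by
        calc z * x''⁻¹ = x' * (x' * x''⁻¹) := by rw [← e0]; group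
          _ = x' * x''⁻¹ * x' := by rw [mul_assoc x', c3.inv_left.eq]
          _ = x := by rw [e1]; group
      have e4 : x''⁻¹ = x⁻¹ := by
        rw [inv_eq_mul h.xx h.fr.zz, ← e3, ← mul_assoc, h.fr.zz, one_mul]
      exact inv_injective e4
    have yyK : y * y ∈ K := K.mul_mem h.yK h.yK
    by_cases h4 : (y * y) * (y * y) = 1
    · exact (h.gK.uniq _ yyK h4).resolve_left h.y4
    · refine absurd (h.gK.norm_of xw yyK (Two.of_mem h.fr.pT yyT) h4 ?_) hx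
      have : x * (y * y) * x⁻¹ = y * y := by
        calc x * (y * y) * x⁻¹ = ((y * y) * x * (y * y)⁻¹) * (y * y) * x⁻¹ := by rw [e2]
          _ = y * y := by group
      rw [this]; exact yyK

theorem Cn.not_a {J K T S : Subgroup G} {z w y x n : G} (h : Cn J K z w y x n T S) :
    x ∉ Nz K := by
  intro hx
  have hw : w = x * (y * x * y⁻¹)⁻¹ := by
    rcases h.toCx.lx with e | e
    · exact e.2
    · exact absurd hx e.1
  have zz := h.fr.zz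
  have zK : z ∉ K := h.gJ.not_mem h.gK h.ne
  have yz : Commute y z := h.fr.cz h.yT
  have nz : Commute n z := h.fr.cz h.nT
  have xz : Commute x z := h.fr.cz h.xT
  have cxn : Commute n (y * x * y⁻¹) := h.toCf.comm h.nJ h.nT h.xJ h.xT
  have cnx : Commute x (y * n * y⁻¹) := h.toCf.comm h.xJ h.xT h.nJ h.nT
  have n'T : y * n * y⁻¹ ∈ T := T.mul_mem (T.mul_mem h.yT h.nT) (T.inv_mem h.yT)
  have n'z : Commute (y * n * y⁻¹) z := h.fr.cz n'T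
  have wn : w * n * w⁻¹ = z * n := by
    calc w * n * w⁻¹ = x * ((y * x * y⁻¹)⁻¹ * n) * (y * x * y⁻¹) * x⁻¹ := by rw [hw]; group
      _ = x * n * x⁻¹ := by rw [← cxn.inv_right.eq]; group
      _ = z * n := lx_inv_conj h.xx h.inv
  have wn' : w * (y * n * y⁻¹) * w⁻¹ = z * (y * n * y⁻¹) := by
    calc w * (y * n * y⁻¹) * w⁻¹ = x * (y * (x⁻¹ * n * x) * y⁻¹) * x⁻¹ := by rw [hw]; group
      _ = x * (y * z) * n * y⁻¹ * x⁻¹ := by rw [lx_inv_conj' h.xx zz h.inv]; group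
      _ = (x * z) * (y * n * y⁻¹) * x⁻¹ := by rw [yz.eq]; group
      _ = z * (x * (y * n * y⁻¹)) * x⁻¹ := by rw [xz.eq]; group
      _ = z * (y * n * y⁻¹) := by rw [cnx.eq]; group
  obtain ⟨s, hs⟩ : ∃ s, s = n * (y * n * y⁻¹) := ⟨_, rfl⟩
  have sT : s ∈ T := hs ▸ T.mul_mem h.nT n'T
  have sw : s * w = w * s := by
    have : w * s * w⁻¹ = s := by
      calc w * s * w⁻¹ = (w * n * w⁻¹) * (w * (y * n * y⁻¹) * w⁻¹) := by rw [hs]; group
        _ = z * (n * z) * (y * n * y⁻¹) := by rw [wn, wn']; group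
        _ = (z * z) * (n * (y * n * y⁻¹)) := by rw [nz.eq]; group
        _ = s := by rw [zz, one_mul, hs]
    calc s * w = w * s * w⁻¹ * w := by rw [this]
      _ = w * s := by group
  have sS : s ∈ S := h.fr.mem_S sT sw
  have yyT : y * y ∈ T := T.mul_mem h.yT h.yT
  have j2 : (y * y) * n * (y * y)⁻¹ ∈ J := H42.conj_mem_of_mem_normalizer h.y2 h.nJ
  have t2 : (y * y) * n * (y * y)⁻¹ ∈ T := T.mul_mem (T.mul_mem yyT h.nT) (T.inv_mem yyT)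
  have c3 : Commute ((y * y) * n * (y * y)⁻¹) (y * n * y⁻¹) := h.toCf.comm j2 t2 h.nJ h.nT
  obtain ⟨c0, hc0⟩ : ∃ c0, c0 = n * ((y * y) * n * (y * y)⁻¹)⁻¹ := ⟨_, rfl⟩
  have cJ : c0 ∈ J := hc0 ▸ J.mul_mem h.nJ (J.inv_mem j2)
  have cT : c0 ∈ T := hc0 ▸ T.mul_mem h.nT (T.inv_mem t2)
  have c2 : Two c0 := Two.of_mem h.fr.pT cT
  have sy : s * y * s⁻¹ = c0 * y := by
    calc s * y * s⁻¹ = n * ((y * n * y⁻¹) * ((y * y) * n * (y * y)⁻¹)⁻¹) * (y * n * y⁻¹)⁻¹ * y := by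
          rw [hs]; group
      _ = c0 * y := by rw [← c3.inv_left.eq, hc0]; group
  have c1 : c0 ≠ 1 := by
    intro e
    have e1 : (y * y) * n * (y * y)⁻¹ = n := by
      rw [hc0, mul_inv_eq_one] at e; exact e.symm
    have e2 : Commute (y * y) n := by
      calc (y * y) * n = (y * y) * n * (y * y)⁻¹ * (y * y) := by group
        _ = n * (y * y) := by rw [e1]
    obtain ⟨i, hi⟩ := h.toCf.w_pow
    have e3 : Commute w n := hi ▸ e2.pow_left i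
    rw [e3.eq, mul_inv_cancel_right, eq_comm, mul_eq_right] at wn
    exact h.gJ.z1 wn
  have sN : s ∉ Nz K := by
    intro sN
    have h1 : s * y * s⁻¹ ∈ K := H42.conj_mem_of_mem_normalizer sN h.yK
    rw [sy] at h1
    have cK : c0 ∈ K := (K.mul_mem_cancel_right h.yK).1 h1
    by_cases h4 : c0 * c0 = 1
    · rcases h.gJ.uniq _ cJ h4 with e | e
      · exact c1 e
      · exact zK (e ▸ cK)
    · obtain ⟨i, hi⟩ := h.gJ.pow_four cJ c2 h4
      exact zK (hi ▸ K.mul_mem (K.pow_mem cK i) (K.pow_mem cK i))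
  have cK' : Cp w (cj s K) := h.gK.comp.cj' sw
  have y'K : c0 * y ∈ cj s K := sy ▸ conj_mem_cj h.yK
  have y'S : c0 * y ∈ S := sy ▸ S.mul_mem (S.mul_mem sS h.yS) (S.inv_mem sS)
  have cK'' : ∀ a ∈ K, a ∈ S → a * (c0 * y) = (c0 * y) * a := fun a aK aS =>
    Cp.comm h.gK.comp cK' (cj_ne sN).symm h.fr.pS aS y'S aK y'K
  have cz : c0 = z := by
    have e1 := cK'' y h.yK h.yS
    have e2 : y * c0 * y⁻¹ = c0 := by
      calc y * c0 * y⁻¹ = y * (c0 * y) * y⁻¹ * y⁻¹ := by group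
        _ = c0 := by rw [e1]; group
    have e3 : c0 ∈ cj y J := e2 ▸ conj_mem_cj cJ
    exact (h.gJ.eq_of_DD cJ c2
      (Cp.le_DD h.gJ.comp h.toCf.gJ'.comp (cj_ne h.yN) e3)).resolve_left c1
  subst cz
  have dK : cj s K ≤ DD w K := Cp.le_DD h.gK.comp cK' (cj_ne sN)
  have yy : y * y = w := by
    have e1 : (c0 * y) * (c0 * y) = y * y := by
      calc (c0 * y) * (c0 * y) = c0 * (y * c0) * y := by group
        _ = (c0 * c0) * (y * y) := by rw [yz.eq]; group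
        _ = y * y := by rw [zz, one_mul]
    exact (h.gK.eq_of_DD (K.mul_mem h.yK h.yK) (Two.of_mem h.fr.pT yyT)
      (dK (e1 ▸ mul_mem y'K y'K))).resolve_left h.y4
  have xy : x * y * x⁻¹ = y⁻¹ := by
    rw [h.toCx.conj_y, ← hw, inv_eq_mul yy h.fr.ww]
  have xy' : x⁻¹ * y * x = y⁻¹ := by
    calc x⁻¹ * y * x = (x⁻¹ * (y⁻¹) * x)⁻¹ := by group
      _ = (x⁻¹ * (x * y * x⁻¹) * x)⁻¹ := by rw [xy]
      _ = y⁻¹ := by group
  obtain ⟨a, ha, -, ay⟩ := h.gK.q1 (h.gK.comp.syl h.fr.sS) (mem_inf.2 ⟨h.yS, h.yK⟩) yy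
  obtain ⟨aS, aK⟩ := mem_inf.1 ha
  have ay' : a * y⁻¹ * a⁻¹ = y := by
    calc a * y⁻¹ * a⁻¹ = (a * y * a⁻¹)⁻¹ := by group
      _ = y := by rw [ay, inv_inv]
  have ay'' : a⁻¹ * y * a = y⁻¹ := by
    calc a⁻¹ * y * a = a⁻¹ * (a * y⁻¹ * a⁻¹) * a := by rw [ay']
      _ = y⁻¹ := by group
  have a1K : x * a * x⁻¹ ∈ K := H42.conj_mem_of_mem_normalizer hx aK
  have a1S : x * a * x⁻¹ ∈ S := S.mul_mem (S.mul_mem h.xS aS) (S.inv_mem h.xS)
  have cy : (x * a * x⁻¹ * a⁻¹) * y = y * (x * a * x⁻¹ * a⁻¹) := by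
    calc (x * a * x⁻¹ * a⁻¹) * y
        = x * a * (x⁻¹ * (a⁻¹ * y * a) * x) * x⁻¹ * a⁻¹ := by group
      _ = x * a * (x⁻¹ * y * x)⁻¹ * x⁻¹ * a⁻¹ := by rw [ay'']; group
      _ = x * (a * y * a⁻¹) * a * x⁻¹ * a⁻¹ := by rw [xy']; group
      _ = (x * y * x⁻¹)⁻¹ * (x * a * x⁻¹ * a⁻¹) := by rw [ay]; group
      _ = y * (x * a * x⁻¹ * a⁻¹) := by rw [xy, inv_inv]
  have hs' : Supp c0 w J (cj y J) := hw ▸ h.toCx.supp
  have cy' := sqrt_cent h.gK h.fr h.yK h.yS yy (dK y'K) hs' h.yN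
    (K.mul_mem a1K (K.inv_mem aK)) (S.mul_mem a1S (S.inv_mem aS)) cy
  have e1 := lx_zpow_inv xy cy'
  have e2 : c0 * a * c0⁻¹ = a := by
    calc c0 * a * c0⁻¹ = (x * (x * a * x⁻¹ * a⁻¹) * x⁻¹) * (x * a * x⁻¹) := by
          rw [← h.xx]; group
      _ = a := by rw [e1]; group
  have e3 : a * c0 * a⁻¹ = c0 * w := by
    calc a * c0 * a⁻¹ = a * (c0 * y) * y⁻¹ * a⁻¹ := by group
      _ = c0 * y * (a * y⁻¹ * a⁻¹) := by rw [cK'' a aK aS]; group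
      _ = c0 * w := by rw [ay', mul_assoc, yy]
  have e4 : a * c0 * a⁻¹ = c0 := by
    calc a * c0 * a⁻¹ = (c0 * a * c0⁻¹) * c0 * a⁻¹ := by rw [e2]
      _ = c0 := by group
  rw [e4, eq_comm, mul_eq_left] at e3
  exact h.gK.z1 e3

end Cfsg.Agent.IQ
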