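import Cfsg.Agent.IQ.Defs
import Cfsg.Agent.H1.UniqueSub
import Cfsg.Agent.H30.QuatLocal

/-! Project IQ: the quaternion Sylow 2-subgroups of a perfect group with a unique involution. -/

set_option autoImplicit false
set_option linter.unusedVariables false
set_option linter.unusedSectionVars false

namespace Cfsg.Agent.IQ

open Subgroup Cfsg.Agent.H44 Cfsg.Agent.H59
open Cfsg.Agent.H42 (SylIn)

universe u

variable {G : Type u} [Group G] [Finite G]

omit [Finite G] in
theorem Good.cz {J : Subgroup G} {z c : G} (g : Good J z) (hc : c ∈ J) : c * z = z * c :=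
  mem_C1.1 (g.comp.le hc)

theorem Good.pow_four {J : Subgroup G} {z q : G} (g : Good J z) (hq : q ∈ J) (h2 : Two q)
    (h4 : q * q ≠ 1) : ∃ i : ℕ, q ^ i * q ^ i = z := by
  obtain ⟨k, hk⟩ := h2
  induction k with
  | zero => exact absurd (by rw [pow_zero, pow_one] at hk; rw [hk, mul_one]) h4
  | succ k ih =>
    have e : q ^ 2 ^ k * q ^ 2 ^ k = 1 := by rw [← pow_add, ← two_mul, ← pow_succ', hk]
    rcases g.uniq _ (pow_mem hq _) e with h | h
    · exact ih h
    · cases k with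
      | zero =>
        rw [pow_zero, pow_one] at h
        exact absurd (by rw [h, g.zz]) h4
      | succ j => exact ⟨2 ^ j, by rw [← pow_add, ← two_mul, ← pow_succ', h]⟩

theorem Good.z_mem {J R : Subgroup G} {z : G} (g : Good J z) (hR : SylIn 2 R J) : z ∈ R := by
  obtain ⟨c, hc, h⟩ := hR.exists_conj (Two.of_sq g.zz).isP (zpowers_le.2 g.mem)
  have := h z (mem_zpowers z)
  rwa [g.cz hc, mul_inv_cancel_right] at this

omit [Finite G] in
/-- two commuting square roots of `z` -/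
theorem Good.eq_or_inv {J : Subgroup G} {z x y : G} (g : Good J z) (hx : x ∈ J) (hy : y ∈ J)
    (xx : x * x = z) (yy : y * y = z) (h : y * x = x * y) : y = x ∨ y = x⁻¹ := by
  have e : y * x * (y * x) = 1 := by
    calc y * x * (y * x) = y * (x * y) * x := by group
      _ = y * y * (x * x) := by rw [← h]; group
      _ = 1 := by rw [xx, yy, g.zz]
  rcases g.uniq _ (mul_mem hy hx) e with h1 | h1
  · exact Or.inr (eq_inv_of_mul_eq_one_left h1)
  · exact Or.inl (mul_right_cancel (h1.trans xx.symm))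

omit [Finite G] in
theorem Good.ne_inv {J : Subgroup G} {z x : G} (g : Good J z) (xx : x * x = z) : x ≠ x⁻¹ := fun e =>
  g.z1 (by rw [← xx]; nth_rewrite 2 [e]; exact mul_inv_cancel x)

omit [Finite G] in
theorem q8_symm {z x n : G} (xx : x * x = z) (nn : n * n = z) (h : x * n * x⁻¹ = n⁻¹) :
    n * x * n⁻¹ = x⁻¹ := by
  have e : n * x = x * n⁻¹ := by
    calc n * x = x * (x⁻¹ * (n⁻¹)⁻¹ * x) := by group
      _ = x * (x⁻¹ * (x * n * x⁻¹)⁻¹ * x) := by rw [h]
      _ = x * n⁻¹ := by group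
  calc n * x * n⁻¹ = x * (n * n)⁻¹ := by rw [e]; group
    _ = x⁻¹ := by rw [nn, ← xx]; group

/-- generators of a generalized quaternion group -/
structure Qd (R : Subgroup G) (z a b : G) (k : ℕ) : Prop where
  ha : a ∈ R
  hb : b ∈ R
  ord : orderOf a = 2 * 2 ^ (k + 1)
  az : a ^ 2 ^ k * a ^ 2 ^ k = z
  bb : b * b = z
  ba : b * a * b⁻¹ = a⁻¹
  gen : ∀ r ∈ R, r ∈ zpowers a ∨ b⁻¹ * r ∈ zpowers a

omit [Finite G] in
theorem Qd.inv_b {R : Subgroup G} {z a b c : G} {k : ℕ} (h : Qd R z a b k) (hc : c ∈ zpowers a) :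
    b * c * b⁻¹ = c⁻¹ := by
  obtain ⟨i, rfl⟩ := hc
  change b * a ^ i * b⁻¹ = (a ^ i)⁻¹
  rw [← conj_zpow, h.ba, inv_zpow]

omit [Finite G] in
theorem zp_comm {a c d : G} (hc : c ∈ zpowers a) (hd : d ∈ zpowers a) : c * d = d * c := by
  obtain ⟨i, rfl⟩ := hc
  obtain ⟨j, rfl⟩ := hd
  exact zpow_mul_comm a i j

omit [Finite G] in
theorem Qd.out {R : Subgroup G} {z a b r : G} {k : ℕ} (h : Qd R z a b k) (hr : r ∈ R) (h1 : r ∉ zpowers a) :
    r * r = z ∧ ∀ c ∈ zpowers a, r * c * r⁻¹ = c⁻¹ := by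
  have h2 := (h.gen r hr).resolve_left h1
  obtain ⟨d, rfl⟩ : ∃ d, r = b * d := ⟨b⁻¹ * r, by group⟩
  rw [inv_mul_cancel_left] at h2
  constructor
  · calc b * d * (b * d) = (b * d * b⁻¹) * (b * b) * d := by group
      _ = d⁻¹ * (a ^ 2 ^ k * a ^ 2 ^ k) * d := by rw [h.inv_b h2, h.bb, h.az]
      _ = z := by
        rw [zp_comm (inv_mem h2) (mul_mem (pow_mem (mem_zpowers a) _) (pow_mem (mem_zpowers a) _)),
          inv_mul_cancel_right, h.az]
  · intro c hc
    calc b * d * c * (b * d)⁻¹ = b * (d * c * d⁻¹) * b⁻¹ := by group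
      _ = c⁻¹ := by rw [zp_comm h2 hc, mul_inv_cancel_right, h.inv_b hc]

theorem Good.not_cyclic {J R : Subgroup G} {z : G} (g : Good J z) (hR : SylIn 2 R J) : ¬ IsCyclic R := by
  intro hc
  obtain ⟨K, π, -, -, h1, h2, -⟩ := H30.exists_retraction_of_isCyclic hR hc
  have h3 : _root_.commutator J ≤ π.ker := by
    refine commutator_le.2 fun a _ b _ => ?_
    rw [MonoidHom.mem_ker, map_commutatorElement, commutatorElement_eq_one_iff_mul_comm]
    exact congrArg Subtype.val (hc.isMulCommutative.is_comm.comm (⟨π a, h1 a⟩ : R) ⟨π b, h1 b⟩)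
  have h4 : z ∈ (_root_.commutator J).map J.subtype := by
    rw [map_subtype_commutator, g.comp.pqs.perfect]; exact g.mem
  obtain ⟨c, hc1, hc2⟩ := h4
  have h5 : (c : G) = z := hc2
  exact g.z1 (by rw [← h5, ← h2 c (h5 ▸ g.z_mem hR)]; exact h3 hc1)

theorem Good.exists_Qd {J R : Subgroup G} {z : G} (g : Good J z) (hR : SylIn 2 R J) :
    ∃ a b k, Qd R z a b k := by
  have u : ∀ x : R, orderOf x = 2 → (x : G) = z := fun x hx => by
    have h1 : x * x = 1 := by rw [← sq, ← hx, pow_orderOf_eq_one]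
    refine (g.uniq x (hR.le x.2) (congrArg Subtype.val h1)).resolve_left fun e => ?_
    rw [show x = 1 from Subtype.ext e, orderOf_one] at hx
    omega
  obtain ⟨k, a, b, h1, h2, h3, h4⟩ := (H1.cyclic_or_quaternion_gens hR.isP
    fun x y hx hy => Subtype.ext ((u x hx).trans (u y hy).symm)).resolve_left (g.not_cyclic hR)
  have h5 : ((a ^ 2 ^ (k + 1) : R) : G) = z := by
    refine u _ ?_
    rw [orderOf_pow' _ (by positivity), h1, Nat.gcd_eq_right (Dvd.intro_left 2 rfl),
      Nat.mul_div_cancel _ (by positivity)]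
  have m : ∀ x : R, x ∈ zpowers a → (x : G) ∈ zpowers (a : G) := by
    rintro _ ⟨i, rfl⟩
    exact ⟨i, by simp⟩
  refine ⟨a, b, k, a.2, b.2, by rw [orderOf_coe, h1], ?_, ?_, congrArg Subtype.val h3, fun r hr => ?_⟩
  · rw [← pow_add, ← two_mul, ← pow_succ', ← h5]; simp
  · rw [← h5, ← h2]; simp
  · exact (h4 ⟨r, hr⟩).imp (m _) (m _)

theorem Good.exists_four {J R : Subgroup G} {z : G} (g : Good J z) (hR : SylIn 2 R J) :
    ∃ x ∈ R, x * x = z := by
  obtain ⟨a, b, k, h⟩ := g.exists_Qd hR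
  exact ⟨b, h.hb, h.bb⟩

theorem Good.q1 {J R : Subgroup G} {z x : G} (g : Good J z) (hR : SylIn 2 R J) (hx : x ∈ R)
    (xx : x * x = z) : ∃ n ∈ R, n * n = z ∧ n * x * n⁻¹ = x⁻¹ := by
  obtain ⟨a, b, k, h⟩ := g.exists_Qd hR
  by_cases hxa : x ∈ zpowers a
  · exact ⟨b, h.hb, h.bb, h.inv_b hxa⟩
  · exact ⟨a ^ 2 ^ k, pow_mem h.ha _, h.az,
      q8_symm xx h.az ((h.out hx hxa).2 _ (pow_mem (mem_zpowers a) _))⟩

theorem Good.sqrt {J R : Subgroup G} {z x c : G} (g : Good J z) (hR : SylIn 2 R J) (hx : x ∈ R)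
    (xx : x * x = z) (hc : c ∈ R) (cx : c * x = x * c) :
    c ∈ zpowers x ∨ ∃ ρ ∈ R, ρ * ρ = x := by
  obtain ⟨a, b, k, h⟩ := g.exists_Qd hR
  by_cases hxa : x ∈ zpowers a
  · have hca : c ∈ zpowers a := by
      by_contra hca
      have := (h.out hc hca).2 x hxa
      rw [cx, mul_inv_cancel_right] at this
      exact g.ne_inv xx this
    have e := g.eq_or_inv (hR.le (pow_mem h.ha _)) (hR.le hx) h.az xx
      (zp_comm hxa (pow_mem (mem_zpowers a) _))
    cases k with
    | zero =>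
      left
      rw [pow_zero, pow_one] at e
      rcases e with e | e
      · rwa [e]
      · rwa [e, zpowers_inv]
    | succ j =>
      right
      have e2 : a ^ 2 ^ j * a ^ 2 ^ j = a ^ 2 ^ (j + 1) := by rw [← pow_add, ← two_mul, ← pow_succ']
      rcases e with e | e
      · exact ⟨_, pow_mem h.ha _, e2.trans e.symm⟩
      · exact ⟨_, inv_mem (pow_mem h.ha (2 ^ j)), by rw [← mul_inv_rev, e2, e]⟩
  · left
    by_cases hca : c ∈ zpowers a
    · have e := (h.out hx hxa).2 c hca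
      rw [← cx, mul_inv_cancel_right] at e
      rcases g.uniq c (hR.le hc) (by nth_rewrite 2 [e]; exact mul_inv_cancel c) with e1 | e1
      · rw [e1]; exact one_mem _
      · rw [e1, ← xx]; exact mul_mem (mem_zpowers x) (mem_zpowers x)
    · rcases g.eq_or_inv (hR.le hx) (hR.le hc) xx (h.out hc hca).1 cx with e | e
      · rw [e]; exact mem_zpowers x
      · rw [e]; exact inv_mem (mem_zpowers x)

theorem Good.cent2 {J R : Subgroup G} {z x n q : G} (g : Good J z) (hR : SylIn 2 R J) (hx : x ∈ R)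
    (xx : x * x = z) (hn : n ∈ R) (inv : n * x * n⁻¹ = x⁻¹) (hq : q ∈ R)
    (qx : q * x = x * q) (qn : q * n = n * q) : q = 1 ∨ q = z := by
  refine g.uniq q (hR.le hq) ?_
  by_contra h4
  obtain ⟨i, hi⟩ := g.pow_four (hR.le hq) (Two.of_mem hR.isP hq) h4
  have c1 : q ^ i * x = x * q ^ i := (Commute.pow_left (show Commute q x from qx) i).eq
  have c2 : Commute (q ^ i) n := Commute.pow_left (show Commute q n from qn) i
  have c3 : Commute x n := by
    rcases g.eq_or_inv (hR.le hx) (hR.le (pow_mem hq i)) xx hi c1 with e | e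
    · rwa [e] at c2
    · rw [e] at c2; exact Commute.inv_left_iff.1 c2
  rw [← c3.eq, mul_inv_cancel_right] at inv
  exact g.ne_inv xx inv

theorem Good.q2 {J R : Subgroup G} {z a : G} (g : Good J z) (hR : SylIn 2 R J) (ha : Two a)
    (aR : a ∈ Nz R) : ∃ x ∈ R, x * x = z ∧ (a * x * a⁻¹ = x ∨ a * x * a⁻¹ = x⁻¹) := by
  obtain ⟨c, b, k, h⟩ := g.exists_Qd hR
  have hz : ∀ a ∈ Nz R, a * z * a⁻¹ = z := fun a aR =>
    (g.uniq _ (hR.le (H42.conj_mem_of_mem_normalizer aR (g.z_mem hR)))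
      (by rw [conj_mul, g.zz, mul_one, mul_inv_cancel])).resolve_left fun e => g.z1 (by simpa using e)
  cases k with
  | succ j =>
    have h1 : a * c * a⁻¹ ∈ zpowers c := by
      by_contra h1
      have e := (h.out (H42.conj_mem_of_mem_normalizer aR h.ha) h1).1
      rw [conj_mul, ← hz a aR, mul_left_inj, mul_right_inj] at e
      have e4 : c ^ 4 = 1 := by rw [show 4 = 2 * 2 from rfl, pow_mul, sq, sq, e, g.zz]
      have := Nat.le_of_dvd (by norm_num) (orderOf_dvd_of_pow_eq_one e4)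
      rw [h.ord, pow_succ, pow_succ] at this
      have := Nat.pos_of_ne_zero (pow_ne_zero j (two_ne_zero))
      omega
    refine ⟨_, pow_mem h.ha _, h.az, g.eq_or_inv (hR.le (pow_mem h.ha _))
      (hR.le (H42.conj_mem_of_mem_normalizer aR (pow_mem h.ha _))) h.az (by rw [conj_mul, h.az, hz a aR])
      (zp_comm ?_ (pow_mem (mem_zpowers c) _))⟩
    rw [← conj_pow]; exact pow_mem h1 _
  | zero =>
    have h0 : c * c = z := by simpa using h.az
    have hs : ∀ r ∈ R, r * r = 1 ∨ r * r = z := fun r hr => by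
      by_cases h1 : r ∈ zpowers c
      · rcases mem_zpowers_four h0 g.zz h1 with e | e | e | e
        · left; rw [e, mul_one]
        · right; rw [e, h0]
        · left; rw [e, g.zz]
        · right; rw [e, ← mul_inv_rev, h0, inv_eq_of_mul_eq_one_right g.zz]
      · exact Or.inr (h.out hr h1).1
    obtain ⟨m, hm⟩ := ha
    induction m generalizing a with
    | zero =>
      rw [pow_zero, pow_one] at hm
      exact ⟨c, h.ha, h0, Or.inl (by simp [hm])⟩
    | succ m ih =>
      obtain ⟨x, hx, xx, e⟩ := ih (mul_mem aR aR) (by rw [← sq, ← pow_mul, ← pow_succ', hm])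
      obtain ⟨y, hy⟩ : ∃ y, y = a * x * a⁻¹ := ⟨_, rfl⟩
      have yR : y ∈ R := hy ▸ H42.conj_mem_of_mem_normalizer aR hx
      have yy : y * y = z := by rw [hy, conj_mul, xx, hz a aR]
      have ey : a * y * a⁻¹ = a * a * x * (a * a)⁻¹ := by rw [hy]; group
      rcases hs _ (mul_mem hx yR) with h1 | h1
      · refine ⟨x, hx, xx, ?_⟩
        rw [← hy]
        rcases g.uniq _ (hR.le (mul_mem hx yR)) h1 with h2 | h2
        · exact Or.inr (eq_inv_of_mul_eq_one_right h2)
        · exact Or.inl (mul_left_cancel (h2.trans xx.symm))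
      · have zx := g.cz (hR.le hx)
        have zy := g.cz (hR.le yR)
        have i1 : (x * y)⁻¹ = y * x := by
          rw [mul_inv_rev, inv_eq_mul xx g.zz, inv_eq_mul yy g.zz, ← zy, mul_assoc, ← mul_assoc z, g.zz,
            one_mul]
        refine ⟨x * y, mul_mem hx yR, h1, ?_⟩
        rw [← conj_mul, ← hy, ey]
        rcases e with e | e
        · right; rw [e, i1]
        · left
          rw [e, inv_eq_mul xx g.zz, ← mul_assoc, zy, mul_assoc, ← i1, inv_eq_mul h1 g.zz, ← mul_assoc,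
            g.zz, one_mul]

theorem Good.q3 {J R : Subgroup G} {z x n w : G} (g : Good J z) (hR : SylIn 2 R J) (hx : x ∈ R)
    (xx : x * x = z) (hn : n ∈ R) (inv : n * x * n⁻¹ = x⁻¹) (ww : w * w = 1)
    (wR : w ∈ Nz R) (wx : w * x = x * w) : w * n * w⁻¹ = n ∨ w * n * w⁻¹ = n * z := by
  have cw : Commute w x := wx
  obtain ⟨c, hc⟩ : ∃ c, c = n⁻¹ * (w * n * w⁻¹) := ⟨_, rfl⟩
  have cR : c ∈ R := hc ▸ mul_mem (inv_mem hn) (H42.conj_mem_of_mem_normalizer wR hn)
  have e1 : w⁻¹ * x * w = x := by rw [mul_assoc, ← wx, inv_mul_cancel_left]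
  have e2 : w * x⁻¹ * w⁻¹ = x⁻¹ := by rw [cw.inv_right.eq, mul_inv_cancel_right]
  have cx : Commute c x := by
    have : c * x * c⁻¹ = x := by
      calc c * x * c⁻¹ = n⁻¹ * (w * (n * (w⁻¹ * x * w) * n⁻¹) * w⁻¹) * n := by rw [hc]; group
        _ = n⁻¹ * (n * x * n⁻¹) * n := by rw [e1, inv, e2]
        _ = x := by group
    exact mul_inv_eq_iff_eq_mul.1 this
  have wc : w * c * w⁻¹ = c⁻¹ := by
    calc w * c * w⁻¹ = w * n⁻¹ * w⁻¹ * ((w * w) * n * (w * w)⁻¹) := by rw [hc]; group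
      _ = c⁻¹ := by rw [ww, hc]; group
  have h4 : c * c = 1 := by
    by_contra h4
    obtain ⟨i, hi⟩ := g.pow_four (hR.le cR) (Two.of_mem hR.isP cR) h4
    have w1 : w * c ^ i * w⁻¹ = (c ^ i)⁻¹ := by rw [← conj_pow, wc, inv_pow]
    have w2 : Commute w (c ^ i) := by
      rcases g.eq_or_inv (hR.le hx) (hR.le (pow_mem cR i)) xx hi (cx.pow_left i).eq with e | e
      · rw [e]; exact cw
      · rw [e]; exact cw.inv_right
    rw [w2.eq, mul_inv_cancel_right] at w1
    exact g.ne_inv hi w1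
  have e : w * n * w⁻¹ = n * c := by rw [hc]; group
  rcases g.uniq c (hR.le cR) h4 with h1 | h1
  · left; rw [e, h1, mul_one]
  · right; rw [e, h1]

end Cfsg.Agent.IQ
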