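import Cfsg.Agent.IQ.Comp

/-! Project IQ: the involution `w` normalises `J`. -/

set_option autoImplicit false

namespace Cfsg.Agent.IQ

open Subgroup Cfsg.Agent.H44 Cfsg.Agent.H59
open Cfsg.Agent.H42 (SylIn)

universe u

variable {G : Type u} [Group G] [Finite G]

namespace St1

variable {J K T S : Subgroup G} {z w y a b c u v : G}

theorem cm (h : Cf J K z w y T S) (ha : a ∈ T ⊓ J) (hb : b ∈ T ⊓ J) (hu : u ∈ T) (hv : v ∈ T)
    (hn : v⁻¹ * u ∉ Nz J) : Commute (u * a * u⁻¹) (v * b * v⁻¹) :=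
  (h.gJ.comp.cj' (h.fr.cz hu)).comm (h.gJ.comp.cj' (h.fr.cz hv)) (fun e => hn (cj_eq_cj_iff.1 e)) h.fr.pT
    (mul_mem (mul_mem hu ha.1) (inv_mem hu)) (mul_mem (mul_mem hv hb.1) (inv_mem hv)) (conj_mem_cj ha.2)
    (conj_mem_cj hb.2)

theorem dd (h : Cf J K z w y T S) (ha : a ∈ J) (hu : u ∈ T) (hn : u ∉ Nz J) : u * a * u⁻¹ ∈ DD z J :=
  h.gJ.comp.le_DD (h.gJ.comp.cj' (h.fr.cz hu)) (cj_ne hn) (conj_mem_cj ha)

/-- the product of `c` and its conjugate under `w` -/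
def dl (w c : G) : G := c * (w * c * w⁻¹)

/-- the product of the four conjugates of `c` -/
def ee (w y c : G) : G := dl w c * (y * dl w c * y⁻¹)

variable (h : Cf J K z w y T S) (yy : y * y = w) (wN : w ∉ Nz J)
include h yy wN

theorem c02 (ha : a ∈ T ⊓ J) (hb : b ∈ T ⊓ J) : Commute a (w * b * w⁻¹) := by
  simpa using cm h ha hb (one_mem T) h.fr.wT (by simpa using wN)

theorem cdd (ha : a ∈ T ⊓ J) (hb : b ∈ T ⊓ J) : Commute (dl w a) (y * dl w b * y⁻¹) := by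
  have e : y * dl w b * y⁻¹ = y * b * y⁻¹ * (y * w * b * (y * w)⁻¹) := by rw [dl]; group
  have hT := mul_mem h.yT h.fr.wT
  have n1 : y⁻¹ * 1 ∉ Nz J := by simpa using h.yN
  have n2 : (y * w)⁻¹ * 1 ∉ Nz J := by
    rw [mul_one, inv_eq_of_mul_eq_one_right (show y * w * y = 1 by rw [← h.fr.ww, ← yy]; group)]
    exact h.yN
  have n3 : y⁻¹ * w ∉ Nz J := by rw [← yy, inv_mul_cancel_left]; exact h.yN
  have n4 : (y * w)⁻¹ * w ∉ Nz J := by
    rw [show (y * w)⁻¹ * w = y⁻¹ by rw [← yy]; group, inv_mem_iff]; exact h.yN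
  have p1 := cm h ha hb (one_mem T) h.yT n1
  have p2 := cm h ha hb (one_mem T) hT n2
  rw [one_mul, inv_one, mul_one] at p1 p2
  rw [e]
  exact (p1.mul_right p2).mul_left ((cm h ha hb h.fr.wT h.yT n3).mul_right (cm h ha hb h.fr.wT hT n4))

theorem dl_w (ha : a ∈ T ⊓ J) : w * dl w a * w⁻¹ = dl w a := by
  rw [dl, (c02 h yy wN ha ha).eq, show w * (w * a * w⁻¹ * a) * w⁻¹ = w * w * a * (w * w)⁻¹ * (w * a * w⁻¹) by group,
    h.fr.ww, ← (c02 h yy wN ha ha).eq]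
  group

theorem dl_mul (ha : a ∈ T ⊓ J) (hb : b ∈ T ⊓ J) : dl w (a * b) = dl w a * dl w b := by
  rw [dl, dl, dl, ← conj_mul, mul_assoc, ← mul_assoc b, (c02 h yy wN hb ha).eq]
  group

theorem ee_mul (ha : a ∈ T ⊓ J) (hb : b ∈ T ⊓ J) : ee w y (a * b) = ee w y a * ee w y b := by
  rw [ee, ee, ee, dl_mul h yy wN ha hb, ← conj_mul, mul_assoc, ← mul_assoc (dl w b), (cdd h yy wN hb ha).eq]
  group

theorem ee_y (ha : a ∈ T ⊓ J) : Commute (ee w y a) y := by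
  have : y * ee w y a * y⁻¹ = ee w y a := by
    rw [ee, ← conj_mul, show y * (y * dl w a * y⁻¹) * y⁻¹ = y * y * dl w a * (y * y)⁻¹ by group, yy,
      dl_w h yy wN ha, (cdd h yy wN ha ha).eq]
  exact (mul_inv_eq_iff_eq_mul.1 this).symm

theorem dl_sq (hc : c ∈ T ⊓ J) (cc : c * c = z) : dl w c * dl w c = 1 := by
  rw [← dl_mul h yy wN hc hc, cc, dl, ← h.fr.comm, mul_inv_cancel_right, h.fr.zz]

theorem ee_sq (hc : c ∈ T ⊓ J) (cc : c * c = z) : ee w y c * ee w y c = 1 := by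
  rw [← ee_mul h yy wN hc hc, ee, dl_mul h yy wN hc hc, dl_sq h yy wN hc cc]
  group

theorem ee_DD (hc : c ∈ T ⊓ J) (cc : c * c = z) : ee w y c * y ∈ DD w K := by
  have hw := mul_inv_eq_iff_eq_mul.1 (dl_w h yy wN hc)
  have e : ee w y c * y = dl w c * y * (dl w c)⁻¹ := by
    rw [ee, inv_eq_of_mul_eq_one_right (dl_sq h yy wN hc cc)]; group
  have n2 : y * w ∉ Nz J := by
    rw [eq_inv_of_mul_eq_one_left (show y * w * y = 1 by rw [← h.fr.ww, ← yy]; group), inv_mem_iff]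
    exact h.yN
  have q : c⁻¹ * ee w y c ∈ DD z J := by
    rw [show c⁻¹ * ee w y c = w * c * w⁻¹ * (y * c * y⁻¹ * (y * w * c * (y * w)⁻¹)) by rw [ee, dl]; group]
    exact mul_mem (dd h hc.2 h.fr.wT wN) (mul_mem (dd h hc.2 h.yT h.yN) (dd h hc.2 (mul_mem h.yT h.fr.wT) n2))
  rw [e]
  refine h.gK.comp.le_DD (h.gK.comp.cj' hw.symm) (cj_ne fun hn => ?_) (conj_mem_cj h.yK)
  have m := H42.conj_mem_of_mem_normalizer hn h.yK
  rw [← e, mul_mem_cancel_right h.yK] at m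
  rcases h.gK.uniq _ m (ee_sq h yy wN hc cc) with r | r
  · rw [r, mul_one, inv_mem_iff] at q
    exact h.gJ.not_DD hc.2 (Two.of_mem h.fr.pT hc.1) (cc ▸ h.gJ.z1) q
  · rw [r] at q
    exact wN ((mul_mem_cancel_left (inv_mem (le_normalizer hc.2))).1 (h.gJ.comp.DD_le_Nz q))

theorem false : False := by
  have hR := h.gJ.comp.syl h.fr.sT
  obtain ⟨x, hx, xx⟩ := h.gJ.exists_four hR
  obtain ⟨n, hn, nn, e⟩ := h.gJ.q1 hR hx xx
  have xn : x * n * (x * n) = z := by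
    rw [show x * n * (x * n) = x * (n * x * n⁻¹) * (n * n) by group, e, nn, mul_inv_cancel, one_mul]
  have hm := mul_mem hx hn
  have q := mul_mem (mul_mem (ee_DD h yy wN hx xx) (ee_DD h yy wN hn nn)) (ee_DD h yy wN hm xn)
  have y3 : y * y * y = y⁻¹ := eq_inv_of_mul_eq_one_left (by rw [mul_assoc, yy, h.fr.ww])
  have r : ee w y x * y * (ee w y n * y) * (ee w y (x * n) * y) = y⁻¹ := by
    have c1 := (ee_y h yy wN hn).eq
    have c2 := ((ee_y h yy wN hm).mul_right (ee_y h yy wN hm)).eq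
    calc _ = ee w y x * (y * ee w y n) * y * (ee w y (x * n) * y) := by group
      _ = ee w y x * ee w y n * (y * y * ee w y (x * n)) * y := by rw [← c1]; group
      _ = ee w y (x * n) * ee w y (x * n) * (y * y * y) := by rw [← c2, ← ee_mul h yy wN hx hn]; group
      _ = y⁻¹ := by rw [ee_sq h yy wN hm xn, one_mul, y3]
  rw [r, inv_mem_iff] at q
  exact h.gK.not_DD h.yK (Two.of_mem h.fr.pT h.yT) h.y4 q

end St1

theorem Cf.w_mem {J K T S : Subgroup G} {z w y : G} (h : Cf J K z w y T S) : w ∈ Nz J := by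
  by_contra wN
  obtain ⟨i, hi⟩ := h.gK.pow_four h.yK (Two.of_mem h.fr.pT h.yT) h.y4
  exact St1.false ⟨h.gJ, h.gK, h.ne, h.fr, pow_mem h.yK i, pow_mem h.yT i, pow_mem h.yS i, hi ▸ h.gK.z1,
    fun m => wN (hi ▸ mul_mem m m)⟩ hi wN

end Cfsg.Agent.IQ
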